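/-
A vanishing sum over linear maps between vector spaces over a finite field.
-/
import Mathlib

set_option autoImplicit false

open Module

namespace Cfsg.Agent.H42.Cuspidal

variable {E : Type*} [Field E] [Fintype E] {W : Type*} [AddCommGroup W] [Module E W] [Fintype W]

/-- The Green product. -/
def greenProd (Q : ℤ) (t : ℕ) : ℤ := ∏ i ∈ Finset.Ico 1 t, (1 - Q ^ i)

theorem greenProd_succ (Q : ℤ) {t : ℕ} (ht : 1 ≤ t) : greenProd Q (t + 1) = greenProd Q t * (1 - Q ^ t) := by
  rw [greenProd, Finset.prod_Ico_succ_top ht]; rfl

/-- The sum over all lists of columns of the Green product of the kernel dimension vanishes. -/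
theorem sum_columns_eq_zero (ha : 1 ≤ finrank E W) : ∀ k : ℕ, 1 ≤ k →
    ∑ c : Fin k → W, greenProd (Fintype.card E : ℤ)
      (finrank E W + (k - finrank E (Submodule.span E (Set.range c)))) = 0 := by
  classical
  haveI : Module.Finite E W := Module.Finite.of_finite
  set a := finrank E W with hadef
  set Q : ℤ := (Fintype.card E : ℤ) with hQ
  have hrle : ∀ {k : ℕ} (c : Fin k → W), finrank E (Submodule.span E (Set.range c)) ≤ k := fun c =>
    (finrank_range_le_card c).trans (by rw [Fintype.card_fin])
  intro k
  induction k with
  | zero => intro h; omega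
  | succ k ih =>
    intro _
    have key : ∑ c : Fin (k + 1) → W, greenProd Q (a + (k + 1 - finrank E (Submodule.span E (Set.range c)))) =
        Q ^ a * (1 - Q ^ k) * ∑ c : Fin k → W, greenProd Q (a + (k - finrank E (Submodule.span E (Set.range c)))) := by
      rw [← (Fin.consEquiv fun _ => W).sum_comp, Fintype.sum_prod_type, Finset.sum_comm, Finset.mul_sum]
      refine Finset.sum_congr rfl fun c _ => ?_
      set U := Submodule.span E (Set.range c) with hU
      set r := finrank E U with hr
      have hrk : r ≤ k := hrle c
      have hspan : ∀ x, Submodule.span E (Set.range (Fin.consEquiv (fun _ => W) (x, c))) = E ∙ x ⊔ U := fun x => by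
        show Submodule.span E (Set.range (Fin.cons x c)) = _
        rw [Fin.range_cons, Submodule.span_insert]
      have hdim : ∀ x, finrank E (Submodule.span E (Set.range (Fin.consEquiv (fun _ => W) (x, c)))) =
          if x ∈ U then r else r + 1 := by
        intro x
        rw [hspan]
        split_ifs with h
        · rw [sup_eq_right.2 ((Submodule.span_singleton_le_iff_mem x U).2 h)]
        · have hx0 : x ≠ 0 := fun e => h (e ▸ U.zero_mem)
          have hdis : (E ∙ x) ⊓ U = ⊥ := by
            rw [Submodule.eq_bot_iff]
            rintro y ⟨hy, hyU⟩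
            obtain ⟨a', rfl⟩ := Submodule.mem_span_singleton.1 hy
            by_contra hne
            have ha' : a' ≠ 0 := fun e => hne (by rw [e, zero_smul])
            exact h (by simpa [smul_smul, inv_mul_cancel₀ ha'] using U.smul_mem a'⁻¹ hyU)
          have := Submodule.finrank_sup_add_finrank_inf_eq (E ∙ x) U
          rw [hdis, finrank_bot, add_zero, finrank_span_singleton hx0] at this
          omega
      rw [Finset.sum_congr rfl fun x _ => by rw [hdim x]]
      rw [← Finset.sum_filter_add_sum_filter_not Finset.univ (fun x => x ∈ U),
        Finset.sum_congr rfl (g := fun _ : W => greenProd Q (a + (k - r)) * (1 - Q ^ (a + (k - r))))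
          (fun x hx => by
            rw [if_pos (Finset.mem_filter.1 hx).2, show a + (k + 1 - r) = a + (k - r) + 1 by omega,
              greenProd_succ Q (by omega)]),
        Finset.sum_congr (s₁ := Finset.univ.filter fun x => ¬ x ∈ U) rfl
          (g := fun _ : W => greenProd Q (a + (k - r)))
          (fun x hx => by rw [if_neg (Finset.mem_filter.1 hx).2, show k + 1 - (r + 1) = k - r by omega]),
        Finset.sum_const, Finset.sum_const, nsmul_eq_mul, nsmul_eq_mul]
      have hc1 : ((Finset.univ.filter fun x => x ∈ U).card : ℤ) = Q ^ r := by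
        rw [← Fintype.card_subtype, Module.card_eq_pow_finrank (K := E)]
        push_cast
        rw [hQ]
      have hc2 : ((Finset.univ.filter fun x => ¬ x ∈ U).card : ℤ) = Q ^ a - Q ^ r := by
        have h := Finset.card_filter_add_card_filter_not (s := (Finset.univ : Finset W)) (fun x => x ∈ U)
        rw [Finset.card_univ, Module.card_eq_pow_finrank (K := E) (V := W)] at h
        have h' : ((Finset.univ.filter fun x => x ∈ U).card : ℤ) +
            ((Finset.univ.filter fun x => ¬ x ∈ U).card : ℤ) = Q ^ a := by
          rw [← Nat.cast_add, h, Nat.cast_pow]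
        rw [hc1] at h'
        linarith
      rw [hc1, hc2]
      have hexp : Q ^ r * Q ^ (a + (k - r)) = Q ^ a * Q ^ k := by
        rw [← pow_add, ← pow_add]; congr 1; omega
      linear_combination (-greenProd Q (a + (k - r))) * hexp
    rw [key]
    rcases Nat.eq_zero_or_pos k with rfl | hk
    · simp
    · rw [ih hk, mul_zero]

/-- The sum over linear maps of the Green product of the kernel dimension vanishes. -/
theorem sum_linearMap_eq_zero (ha : 1 ≤ finrank E W) {K : Type*} [AddCommGroup K] [Module E K] [Module.Finite E K]
    [Fintype (K →ₗ[E] W)] (hk : 1 ≤ finrank E K) :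
    ∑ ψ : K →ₗ[E] W, greenProd (Fintype.card E : ℤ) (finrank E W + finrank E (LinearMap.ker ψ)) = 0 := by
  classical
  let b := Module.finBasis E K
  rw [← sum_columns_eq_zero ha (finrank E K) hk]
  refine (Fintype.sum_equiv (b.constr E).toEquiv _ _ fun c => ?_).symm
  congr 2
  have := (b.constr E c).finrank_range_add_finrank_ker
  rw [b.constr_range] at this
  show _ = finrank E (LinearMap.ker (b.constr E c))
  omega

end Cfsg.Agent.H42.Cuspidal
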