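/-
Equivariant sums over fixed points are generalised characters.
-/
import Cfsg.Agent.H27.Induction

set_option autoImplicit false

namespace Cfsg.Agent.H42.Cuspidal

universe u

variable {G : Type u} [Group G] [Fintype G]

theorem indFun_mem_genChars (H : Subgroup G) [Fintype H] {θ : H → ℂ} (hθ : θ ∈ H27.genChars H) :
    Cfsg.indFun H θ ∈ H27.genChars G := by
  obtain ⟨a, b, ha, hb, rfl⟩ := hθ
  rw [H25.indFun_sub]
  exact sub_mem (H27.mem_genChars_of_isCharacter (H25.isCharacter_indFun H ha))
    (H27.mem_genChars_of_isCharacter (H25.isCharacter_indFun H hb))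

/-- A sum over fixed points of values of generalised characters of the stabilisers. -/
theorem fixedSum_mem_genChars {Ω : Type*} [Fintype Ω] [DecidableEq Ω] [MulAction G Ω] (f : G → Ω → ℂ)
    (hconj : ∀ g h ω, g • ω = ω → f (h * g * h⁻¹) (h • ω) = f g ω)
    (hstab : ∀ ω, (fun s : MulAction.stabilizer G ω => f (s : G) ω) ∈
      H27.genChars (MulAction.stabilizer G ω)) :
    (fun g => ∑ ω ∈ Finset.univ.filter (fun ω : Ω => g • ω = ω), f g ω) ∈ H27.genChars G := by
  classical
  let Q := MulAction.orbitRel.Quotient G Ω
  haveI : Fintype Q := Fintype.ofFinite _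
  have key : (fun g => ∑ ω ∈ Finset.univ.filter (fun ω : Ω => g • ω = ω), f g ω) =
      ∑ o : Q, Cfsg.indFun (MulAction.stabilizer G o.out) (fun s => f (s : G) o.out) := by
    funext g
    rw [Finset.sum_apply, ← Finset.sum_fiberwise (Finset.univ.filter (fun ω : Ω => g • ω = ω))
      (fun ω => (Quotient.mk'' ω : Q))]
    refine Finset.sum_congr rfl fun o _ => ?_
    set a := o.out with ha
    have hao : (Quotient.mk'' a : Q) = o := Quotient.out_eq' o
    rw [H25.indFun_apply]
    have hterm : ∀ x : G, Cfsg.extendByZero (MulAction.stabilizer G a) (fun s => f (s : G) a) (x⁻¹ * g * x) =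
        if g • x • a = x • a then f g (x • a) else 0 := by
      intro x
      have hiff : x⁻¹ * g * x ∈ MulAction.stabilizer G a ↔ g • x • a = x • a := by
        rw [MulAction.mem_stabilizer_iff, mul_smul, mul_smul, inv_smul_eq_iff]
      by_cases h : g • x • a = x • a
      · rw [if_pos h, H25.extendByZero_of_mem _ _ (hiff.2 h)]
        have := hconj g x⁻¹ (x • a) h
        rwa [inv_smul_smul, inv_inv] at this
      · rw [if_neg h, H25.extendByZero_of_notMem _ _ (fun hm => h (hiff.1 hm))]
    rw [Finset.sum_congr rfl fun x _ => hterm x]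
    rw [← Finset.sum_fiberwise_of_maps_to (g := fun x : G => x • a)
      (t := Finset.univ.filter fun ω : Ω => (Quotient.mk'' ω : Q) = o) (fun x _ => by
        simp only [Finset.mem_filter, Finset.mem_univ, true_and]
        rw [← hao]
        exact Quotient.sound' (MulAction.mem_orbit a x))]
    rw [Finset.filter_filter]
    rw [show (Finset.univ.filter fun ω : Ω => g • ω = ω ∧ (Quotient.mk'' ω : Q) = o) =
      (Finset.univ.filter fun ω : Ω => (Quotient.mk'' ω : Q) = o).filter (fun ω => g • ω = ω) by
        rw [Finset.filter_filter]; exact Finset.filter_congr fun ω _ => and_comm,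
      Finset.sum_filter, Finset.mul_sum]
    refine Finset.sum_congr rfl fun ω hω => ?_
    simp only [Finset.mem_filter, Finset.mem_univ, true_and] at hω
    obtain ⟨y, rfl⟩ : ∃ y : G, y • a = ω := MulAction.mem_orbit_iff.1
      (MulAction.orbitRel_apply.1 (Quotient.exact' (hω.trans hao.symm)))
    rw [Finset.sum_congr rfl (g := fun _ : G => if g • y • a = y • a then f g (y • a) else 0) fun x hx => by
      rw [(Finset.mem_filter.1 hx).2], Finset.sum_const, nsmul_eq_mul]
    have hfib : (Finset.univ.filter fun x : G => x • a = y • a).card = Nat.card (MulAction.stabilizer G a) := by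
      rw [Nat.card_eq_fintype_card, ← Fintype.card_subtype]
      refine Fintype.card_congr ((Equiv.mulLeft y⁻¹).subtypeEquiv fun x => ?_)
      rw [MulAction.mem_stabilizer_iff, Equiv.coe_mulLeft, mul_smul, inv_smul_eq_iff]
    rw [hfib, ← mul_assoc, inv_mul_cancel₀ (by exact_mod_cast Nat.card_pos.ne'), one_mul]
  rw [key]
  refine sum_mem fun o _ => ?_
  exact @indFun_mem_genChars G _ _ (MulAction.stabilizer G o.out) (Fintype.ofFinite _) _ (hstab o.out)

end Cfsg.Agent.H42.Cuspidal
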