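/-
Diagonalisable endomorphisms over a finite field and sums of a function over their eigenvalues.
-/
import Mathlib

set_option autoImplicit false

open Polynomial Module

namespace Cfsg.Agent.H42.Cuspidal

variable {L : Type*} [Field L] [Fintype L] {V : Type*} [AddCommGroup V] [Module L V]

/-- The eigenspace. -/
noncomputable abbrev eig (A : Module.End L V) (μ : L) : Submodule L V := LinearMap.ker (A - μ • 1)

theorem mem_eig {A : Module.End L V} {μ : L} {v : V} : v ∈ eig A μ ↔ A v = μ • v := by
  simp [eig, sub_eq_zero]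

/-- The projection to an eigenspace. -/
noncomputable def eigProj (A : Module.End L V) (μ : L) : Module.End L V :=
  1 - (A - μ • 1) ^ (Fintype.card L - 1)

theorem sum_shift_pow_poly : ∑ μ : L, ((X : L[X]) - C μ) ^ (Fintype.card L - 1) = -1 := by
  classical
  set q := Fintype.card L with hq
  have h1 : 1 < q := Fintype.one_lt_card
  set P : L[X] := ∑ μ : L, ((X : L[X]) - C μ) ^ (q - 1) + 1 with hP
  have hdeg : P.natDegree < q := by
    refine lt_of_le_of_lt (natDegree_add_le _ _) (max_lt ?_ (by simp; omega))
    refine lt_of_le_of_lt (natDegree_sum_le_of_forall_le _ _ fun μ _ => ?_) (show q - 1 < q by omega)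
    rw [natDegree_pow, natDegree_X_sub_C, mul_one]
  have h0 : P = 0 := by
    refine eq_zero_of_natDegree_lt_card_of_eval_eq_zero P Function.injective_id (fun a => ?_) hdeg
    simp only [hP, id, eval_add, eval_finsetSum, eval_pow, eval_sub, eval_X, eval_C, eval_one]
    rw [← Finset.add_sum_erase _ _ (Finset.mem_univ a), sub_self, zero_pow (by omega), zero_add,
      Finset.sum_congr rfl fun μ hμ => FiniteField.pow_card_sub_one_eq_one (a - μ)
        (sub_ne_zero.2 (Finset.ne_of_mem_erase hμ).symm),
      Finset.sum_const, nsmul_one, Finset.card_erase_of_mem (Finset.mem_univ a), Finset.card_univ, ← hq,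
      Nat.cast_sub (by omega), hq, Nat.cast_card_eq_zero]
    ring
  exact eq_neg_of_add_eq_zero_left h0

theorem sum_eigProj (A : Module.End L V) : ∑ μ : L, eigProj A μ = 1 := by
  have h := congrArg (aeval A) (sum_shift_pow_poly (L := L))
  simp only [map_sum, map_pow, map_sub, aeval_X, aeval_C, map_neg, map_one,
    Algebra.algebraMap_eq_smul_one] at h
  simp only [eigProj, Finset.sum_sub_distrib, h, Finset.sum_const, Finset.card_univ]
  rw [← Nat.cast_smul_eq_nsmul L, Nat.cast_card_eq_zero, zero_smul, zero_sub, neg_neg]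

variable {A : Module.End L V} (hA : A ^ Fintype.card L = A)
include hA

theorem shift_pow_card (μ : L) : (A - μ • 1) ^ Fintype.card L = A - μ • 1 := by
  obtain ⟨p, hp⟩ := CharP.exists L
  obtain ⟨⟨k, kpos⟩, hpp, hk⟩ := FiniteField.card L p
  haveI : Fact p.Prime := ⟨hpp⟩
  have e : ∀ Q : L[X], Q ^ Fintype.card L = expand L (Fintype.card L) Q := fun Q =>
    (FiniteField.expand_card Q).symm
  have h := congrArg (aeval A) (e (X - C μ))
  simp only [map_pow, map_sub, aeval_X, aeval_C, expand_X, expand_C, Algebra.algebraMap_eq_smul_one] at h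
  rw [h, hA]

theorem eigProj_mem (μ : L) (v : V) : eigProj A μ v ∈ eig A μ := by
  have h1 : 1 < Fintype.card L := Fintype.one_lt_card
  have h := shift_pow_card hA μ
  rw [show Fintype.card L = Fintype.card L - 1 + 1 by omega, pow_succ'] at h
  rw [LinearMap.mem_ker, ← Module.End.mul_apply, eigProj, mul_sub, mul_one, h, sub_self,
    LinearMap.zero_apply]

omit hA in
theorem eigProj_of_mem [DecidableEq L] {μ ν : L} {v : V} (hv : v ∈ eig A ν) :
    eigProj A μ v = (if ν = μ then v else 0 : V) := by
  have h1 : 1 < Fintype.card L := Fintype.one_lt_card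
  have hp : ∀ k : ℕ, ((A - μ • 1) ^ k) v = (ν - μ) ^ k • v := by
    intro k
    induction k with
    | zero => simp
    | succ k ih =>
      rw [pow_succ', Module.End.mul_apply, ih, map_smul, LinearMap.sub_apply, mem_eig.1 hv]
      simp only [LinearMap.smul_apply, Module.End.one_apply]
      rw [← sub_smul, smul_smul, pow_succ]
  rw [eigProj, LinearMap.sub_apply, Module.End.one_apply, hp]
  split_ifs with h
  · rw [h, sub_self, zero_pow (by omega), zero_smul, sub_zero]
  · rw [FiniteField.pow_card_sub_one_eq_one _ (sub_ne_zero.2 h), one_smul, sub_self]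

/-- An invariant subspace is the sum of its intersections with the eigenspaces. -/
theorem finrank_eq_sum_eig [FiniteDimensional L V] (U : Submodule L V) (hU : ∀ v ∈ U, A v ∈ U) :
    finrank L U = ∑ μ : L, finrank L (U ⊓ eig A μ : Submodule L V) := by
  classical
  have hPU : ∀ μ : L, ∀ v ∈ U, eigProj A μ v ∈ U := by
    intro μ v hv
    have : ∀ k : ℕ, ((A - μ • 1) ^ k) v ∈ U := by
      intro k
      induction k with
      | zero => simpa using hv
      | succ k ih =>
        rw [pow_succ', Module.End.mul_apply]
        simp only [LinearMap.sub_apply, LinearMap.smul_apply, Module.End.one_apply]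
        exact U.sub_mem (hU _ ih) (U.smul_mem _ ih)
    rw [eigProj, LinearMap.sub_apply, Module.End.one_apply]
    exact U.sub_mem hv (this _)
  let f : U →ₗ[L] ((μ : L) → (U ⊓ eig A μ : Submodule L V)) := LinearMap.pi fun μ =>
    ((eigProj A μ).comp U.subtype).codRestrict _ fun v => ⟨hPU μ v v.2, eigProj_mem hA μ v⟩
  rw [← Module.finrank_pi_fintype L]
  refine (LinearEquiv.ofBijective f ⟨?_, ?_⟩).finrank_eq
  · rw [← LinearMap.ker_eq_bot, LinearMap.ker_eq_bot']
    intro v hv
    apply Subtype.ext
    have h0 : ∀ μ, eigProj A μ (v : V) = 0 := fun μ => congrArg Subtype.val (congrFun hv μ)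
    have := LinearMap.congr_fun (sum_eigProj A) (v : V)
    rw [LinearMap.sum_apply, Finset.sum_eq_zero fun μ _ => h0 μ, Module.End.one_apply] at this
    exact this.symm
  · intro w
    refine ⟨⟨∑ μ, (w μ : V), Submodule.sum_mem _ fun μ _ => (w μ).2.1⟩, funext fun μ => Subtype.ext ?_⟩
    change eigProj A μ (∑ ν, (w ν : V)) = w μ
    rw [map_sum, Finset.sum_congr rfl fun ν _ => eigProj_of_mem (w ν).2.2]
    simp

/-- The multiplicity of an eigenvalue in the characteristic polynomial. -/
theorem rootMultiplicity_charpoly [FiniteDimensional L V] (μ : L) :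
    A.charpoly.rootMultiplicity μ = finrank L (eig A μ) := by
  rw [← LinearMap.finrank_maxGenEigenspace_eq]
  suffices h : A.maxGenEigenspace μ = eig A μ by rw [h]
  refine le_antisymm ?_ (fun v hv => ?_)
  · intro v hv
    rw [Module.End.mem_maxGenEigenspace] at hv
    obtain ⟨k, hk⟩ := hv
    have hq : ∀ j : ℕ, (A - μ • 1) ^ (Fintype.card L ^ j) = A - μ • 1 := by
      intro j
      induction j with
      | zero => simp
      | succ j ih => rw [pow_succ, pow_mul, ih, shift_pow_card hA μ]
    rw [LinearMap.mem_ker, ← hq k, ← Nat.sub_add_cancel (Nat.lt_pow_self Fintype.one_lt_card (n := k)).le,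
      pow_add, Module.End.mul_apply, hk, map_zero]
  · rw [Module.End.mem_maxGenEigenspace]
    exact ⟨1, by rw [pow_one]; exact hv⟩

end Cfsg.Agent.H42.Cuspidal
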