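/-
Lifting diagonalisable representations of finite nilpotent groups from a finite field to the complex numbers.
-/
import Cfsg.Agent.H42.Cuspidal.EigenSum
import Cfsg.Agent.H25.IndRep
import Cfsg.Agent.H26.CharBasic

set_option autoImplicit false

open Module

namespace Cfsg.Agent.H42.Cuspidal

universe u v w

variable {L : Type w} [Field L] [Fintype L]

open scoped Classical in
/-- A multiplicative character of the field, extended by zero. -/
noncomputable def iota0 (ι : Lˣ →* ℂˣ) (a : L) : ℂ := if h : a = 0 then 0 else (ι (Units.mk0 a h) : ℂ)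

theorem iota0_unit (ι : Lˣ →* ℂˣ) (u : Lˣ) : iota0 ι (u : L) = (ι u : ℂ) := by
  rw [iota0, dif_neg u.ne_zero, Units.mk0_val]

theorem iota0_mul (ι : Lˣ →* ℂˣ) (a b : L) : iota0 ι (a * b) = iota0 ι a * iota0 ι b := by
  by_cases ha : a = 0
  · simp [iota0, ha]
  by_cases hb : b = 0
  · simp [iota0, hb]
  have := iota0_unit ι (Units.mk0 a ha * Units.mk0 b hb)
  rw [Units.val_mul, Units.val_mk0, Units.val_mk0, map_mul, Units.val_mul] at this
  rw [this]
  simp [iota0, ha, hb]

/-- The sum of the lifted eigenvalues. -/
noncomputable def eigSum (ι : Lˣ →* ℂˣ) {V : Type*} [AddCommGroup V] [Module L V] (A : Module.End L V) : ℂ :=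
  ∑ μ : L, (finrank L (eig A μ) : ℂ) * iota0 ι μ

/-- The lifted sum is a character for a finite nilpotent group. -/
theorem isCharacter_eigSum (ι : Lˣ →* ℂˣ) (hι : Function.Injective ι) :
    ∀ (N : ℕ) {K : Type u} [Group K] [Fintype K] [Group.IsNilpotent K] {V : Type v} [AddCommGroup V]
      [Module L V] [FiniteDimensional L V] (ρ : K →* Module.End L V),
      finrank L V ≤ N → (∀ g, ρ g ^ Fintype.card L = ρ g) →
      Cfsg.IsCharacter K (fun g => eigSum ι (ρ g)) := by
  classical
  intro N
  induction N with
  | zero =>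
    intro K _ _ _ V _ _ _ ρ hN _
    convert H26.isCharacter_zero K using 1
    funext g
    refine Finset.sum_eq_zero fun μ _ => ?_
    have : finrank L (eig (ρ g) μ) = 0 := Nat.le_zero.1 ((Submodule.finrank_le _).trans hN)
    rw [this]; simp
  | succ N ih =>
    intro K _ _ _ V _ _ _ ρ hN hq
    rcases Nat.lt_or_ge (finrank L V) (N + 1) with hlt | hge
    · exact ih ρ (by omega) hq
    have hV : finrank L V = N + 1 := le_antisymm hN hge
    let sub : ∀ (W : Submodule L V) (T : Subgroup K), (∀ g ∈ T, ∀ v ∈ W, ρ g v ∈ W) → (T →* Module.End L W) :=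
      fun W T h =>
        { toFun := fun g => (ρ (g : K)).restrict (h g g.2)
          map_one' := by ext; simp
          map_mul' := fun a b => by ext; simp }
    have hsubq : ∀ W T h g, sub W T h g ^ Fintype.card L = sub W T h g := by
      intro W T h g
      have key : ∀ (k : ℕ) (w : W), (((sub W T h g) ^ k) w : V) = (ρ (g : K) ^ k) w := by
        intro k
        induction k with
        | zero => intro w; simp
        | succ k ihk =>
          intro w
          rw [pow_succ', pow_succ', Module.End.mul_apply, Module.End.mul_apply, ← ihk]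
          rfl
      refine LinearMap.ext fun w => Subtype.ext ?_
      rw [key, hq]
      rfl
    have heig : ∀ W T h g (μ : L), finrank L (eig (sub W T h g) μ) =
        finrank L (W ⊓ eig (ρ (g : K)) μ : Submodule L V) := by
      intro W T h g μ
      refine LinearEquiv.finrank_eq
        { toFun := fun w => ⟨(w.1 : V), w.1.2, mem_eig.2 (congrArg Subtype.val (mem_eig.1 w.2))⟩
          map_add' := fun _ _ => rfl
          map_smul' := fun _ _ => rfl
          invFun := fun v => ⟨⟨v.1, v.2.1⟩, mem_eig.2 (Subtype.ext (mem_eig.1 v.2.2))⟩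
          left_inv := fun _ => rfl
          right_inv := fun _ => rfl }
    by_cases hred : ∃ W : Submodule L V, (∀ g, ∀ v ∈ W, ρ g v ∈ W) ∧
        ∃ W' : Submodule L V, (∀ g, ∀ v ∈ W', ρ g v ∈ W') ∧ IsCompl W W' ∧ W ≠ ⊥ ∧ W' ≠ ⊥
    · obtain ⟨W, hW, W', hW', hc, h0, h0'⟩ := hred
      have hd := Submodule.finrank_add_eq_of_isCompl hc
      have hp : 0 < finrank L W := Nat.pos_of_ne_zero fun e => h0 (Submodule.finrank_eq_zero.1 e)
      have hp' : 0 < finrank L W' := Nat.pos_of_ne_zero fun e => h0' (Submodule.finrank_eq_zero.1 e)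
      have key : ∀ (U : Submodule L V) (hU : ∀ g, ∀ v ∈ U, ρ g v ∈ U), finrank L U ≤ N →
          Cfsg.IsCharacter K (fun g => ∑ μ : L, (finrank L (U ⊓ eig (ρ g) μ : Submodule L V) : ℂ) * iota0 ι μ) := by
        intro U hU hUN
        have := H26.isCharacter_comp
          (ih (sub U ⊤ fun g _ => hU g) hUN (hsubq U ⊤ fun g _ => hU g))
          (Subgroup.topEquiv (G := K)).symm.toMonoidHom
        convert this using 1
        funext g
        refine Finset.sum_congr rfl fun μ _ => ?_
        exact congrArg (fun m : ℕ => (m : ℂ) * iota0 ι μ)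
          (heig U ⊤ (fun g _ => hU g) ((Subgroup.topEquiv (G := K)).symm g) μ).symm
      convert H26.isCharacter_add (key W hW (by omega)) (key W' hW' (by omega)) using 1
      funext g
      rw [Pi.add_apply, eigSum, ← Finset.sum_add_distrib]
      refine Finset.sum_congr rfl fun μ _ => ?_
      rw [← add_mul, ← Nat.cast_add]
      congr 2
      have he : W ⊓ eig (ρ g) μ ⊔ W' ⊓ eig (ρ g) μ = eig (ρ g) μ := by
        refine le_antisymm (sup_le inf_le_right inf_le_right) fun v hv => ?_
        obtain ⟨a, ha, b, hb, rfl⟩ := Submodule.mem_sup.1 (hc.sup_eq_top ▸ Submodule.mem_top (x := v))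
        have h1 := mem_eig.1 hv
        rw [map_add, smul_add] at h1
        have h2 : ρ g a - μ • a ∈ W ⊓ W' := ⟨W.sub_mem (hW g a ha) (W.smul_mem _ ha), by
          rw [show ρ g a - μ • a = μ • b - ρ g b by
            rw [sub_eq_sub_iff_add_eq_add, h1]; abel]
          exact W'.sub_mem (W'.smul_mem _ hb) (hW' g b hb)⟩
        rw [hc.inf_eq_bot, Submodule.mem_bot, sub_eq_zero] at h2
        rw [h2] at h1
        exact Submodule.mem_sup.2 ⟨a, ⟨ha, mem_eig.2 h2⟩, b, ⟨hb, mem_eig.2 (add_left_cancel h1)⟩, rfl⟩
      have hdis : (W ⊓ eig (ρ g) μ) ⊓ (W' ⊓ eig (ρ g) μ) = ⊥ :=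
        le_bot_iff.1 ((inf_le_inf inf_le_left inf_le_left).trans hc.inf_eq_bot.le)
      have := Submodule.finrank_sup_add_finrank_inf_eq (W ⊓ eig (ρ g) μ) (W' ⊓ eig (ρ g) μ)
      rw [he, hdis, finrank_bot, add_zero] at this
      exact this
    by_cases hsc : ∀ g : K, ∃ a : L, ∀ v, ρ g v = a • v
    · -- all elements act as scalars, so the space is a line
      have hN0 : N = 0 := by
        by_contra hN0
        obtain ⟨v, hv⟩ : ∃ v : V, v ≠ 0 :=
          (Module.finrank_pos_iff_exists_ne_zero (R := L)).1 (by rw [hV]; omega)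
        obtain ⟨W', hW'⟩ := exists_isCompl (Submodule.span L {v})
        have hinv : ∀ (U : Submodule L V) (g : K), ∀ u ∈ U, ρ g u ∈ U := fun U g u hu => by
          obtain ⟨a, ha⟩ := hsc g
          rw [ha]; exact U.smul_mem _ hu
        refine hred ⟨_, hinv _, W', hinv _, hW', by simpa using hv, fun e => ?_⟩
        have := Submodule.finrank_add_eq_of_isCompl hW'
        rw [e, finrank_span_singleton hv, finrank_bot, hV] at this
        omega
      obtain ⟨v, hv⟩ : ∃ v : V, v ≠ 0 :=
        (Module.finrank_pos_iff_exists_ne_zero (R := L)).1 (by rw [hV]; omega)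
      choose a ha using hsc
      have hne : ∀ g, a g ≠ 0 := fun g e => hv (by
        have h1 : ρ g⁻¹ (ρ g v) = v := by rw [← Module.End.mul_apply, ← map_mul, inv_mul_cancel, map_one]; rfl
        rw [ha g, e, zero_smul, map_zero] at h1
        exact h1.symm)
      have hinj : ∀ b c : L, b • v = c • v → b = c := fun b c h => smul_left_injective L hv h
      let lam : K →* Lˣ :=
        { toFun := fun g => Units.mk0 (a g) (hne g)
          map_one' := Units.ext (hinj _ _ (by rw [Units.val_mk0, ← ha, map_one, Units.val_one, one_smul]; rfl))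
          map_mul' := fun g h => Units.ext (hinj _ _ (by
            rw [Units.val_mk0, Units.val_mul, Units.val_mk0, Units.val_mk0, ← ha, map_mul, Module.End.mul_apply,
              ha, ha, smul_smul, mul_comm])) }
      convert H26.isCharacter_of_irr (H26.isIrrCharacter_hom (ι.comp lam)) using 1
      funext g
      rw [eigSum, Finset.sum_eq_single (a g)]
      · have : eig (ρ g) (a g) = ⊤ := by ext u; simp [mem_eig, ha]
        rw [this, finrank_top, hV, hN0, zero_add, Nat.cast_one, one_mul]
        exact iota0_unit ι (lam g)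
      · intro μ _ hμ
        have : eig (ρ g) μ = ⊥ := by
          refine (Submodule.eq_bot_iff _).2 fun u hu => ?_
          rw [mem_eig, ha, ← sub_eq_zero, ← sub_smul] at hu
          exact (smul_eq_zero.1 hu).resolve_left (sub_ne_zero.2 hμ.symm)
        rw [this]; simp
      · simp
    -- a non-scalar element commuting with the image up to scalars
    let S : Subgroup K :=
      { carrier := {g | ∃ a : L, ∀ v, ρ g v = a • v}
        one_mem' := ⟨1, fun v => by simp⟩
        mul_mem' := by
          rintro g h ⟨a, ha⟩ ⟨b, hb⟩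
          exact ⟨a * b, fun v => by rw [map_mul, Module.End.mul_apply, hb, map_smul, ha, smul_smul, mul_comm]⟩
        inv_mem' := by
          rintro g ⟨a, ha⟩
          refine ⟨a⁻¹, fun v => ?_⟩
          have h1 : ρ g (ρ g⁻¹ v) = v := by rw [← Module.End.mul_apply, ← map_mul, mul_inv_cancel, map_one]; rfl
          rw [ha] at h1
          rcases eq_or_ne a 0 with rfl | ha0
          · rw [zero_smul] at h1; subst h1; simp
          · conv_rhs => rw [← h1]
            rw [smul_smul, inv_mul_cancel₀ ha0, one_smul] }
    haveI : S.Normal := ⟨by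
      rintro n ⟨a, ha⟩ g
      refine ⟨a, fun v => ?_⟩
      rw [map_mul, map_mul, Module.End.mul_apply, Module.End.mul_apply, ha, map_smul, ← Module.End.mul_apply,
        ← map_mul, mul_inv_cancel, map_one]
      rfl⟩
    have hStop : S ≠ ⊤ := fun e => hsc fun g => (e ▸ Subgroup.mem_top g : g ∈ S)
    haveI : Nontrivial (K ⧸ S) := QuotientGroup.nontrivial_iff.2 hStop
    obtain ⟨z, hz, hz1⟩ := (Subgroup.bot_or_exists_ne_one _).resolve_left
      (Group.IsNilpotent.center_ne_bot (G := K ⧸ S))
    obtain ⟨x, rfl⟩ := QuotientGroup.mk'_surjective S z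
    have hxS : x ∉ S := fun e => hz1 ((QuotientGroup.eq_one_iff x).2 e)
    have hcomm : ∀ g : K, x⁻¹ * g * x * g⁻¹ ∈ S := fun g => by
      rw [← QuotientGroup.eq_one_iff]
      have := Subgroup.mem_center_iff.1 hz (QuotientGroup.mk g)
      rw [QuotientGroup.mk'_apply] at this
      simp only [QuotientGroup.mk_mul, QuotientGroup.mk_inv]
      rw [mul_assoc _ (g : K ⧸ S) _, this]
      group
    choose cc hcc using hcomm
    obtain ⟨v0, hv0⟩ : ∃ v : V, v ≠ 0 :=
        (Module.finrank_pos_iff_exists_ne_zero (R := L)).1 (by rw [hV]; omega)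
    have hgx : ∀ g v, ρ g (ρ x v) = cc g • ρ x (ρ g v) := by
      intro g v
      have h : g * x = x * (x⁻¹ * g * x * g⁻¹) * g := by group
      calc ρ g (ρ x v) = ρ (g * x) v := by rw [map_mul]; rfl
        _ = cc g • ρ x (ρ g v) := by
          rw [h, map_mul, map_mul, Module.End.mul_apply, Module.End.mul_apply, hcc, map_smul]
    have hinvb : ∀ g v, ρ g⁻¹ (ρ g v) = v := fun g v => by
      rw [← Module.End.mul_apply, ← map_mul, inv_mul_cancel, map_one]; rfl
    have hc0 : ∀ g, cc g ≠ 0 := fun g e => hv0 (by
      have := hgx g v0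
      rw [e, zero_smul] at this
      rw [← hinvb x v0, ← hinvb g (ρ x v0), this, map_zero, map_zero])
    have hxinv : ∀ v, v ≠ 0 → ρ x v ≠ 0 := fun v hv e => hv (by rw [← hinvb x v, e, map_zero])
    have hginv : ∀ g v, v ≠ 0 → ρ g v ≠ 0 := fun g v hv e => hv (by rw [← hinvb g v, e, map_zero])
    let c : K →* Lˣ :=
      { toFun := fun g => Units.mk0 (cc g) (hc0 g)
        map_one' := Units.ext (smul_left_injective L (hxinv v0 hv0) (by
          have := hgx 1 v0
          simp only [map_one, Module.End.one_apply] at this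
          simpa using this.symm))
        map_mul' := fun g h => Units.ext (smul_left_injective L (hxinv _ (hginv g _ (hginv h v0 hv0))) (by
          simp only [Units.val_mk0, Units.val_mul]
          have h1 := hgx (g * h) v0
          rw [map_mul, Module.End.mul_apply, Module.End.mul_apply, hgx h, map_smul, hgx g, smul_smul,
            mul_comm] at h1
          exact h1.symm)) }
    -- eigenspaces of the special element are permuted
    have hperm : ∀ g, ∀ μ : L, ∀ v ∈ eig (ρ x) μ, ρ g v ∈ eig (ρ x) ((cc g)⁻¹ * μ) := by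
      intro g μ v hv
      rw [mem_eig] at hv ⊢
      have h1 := hgx g v
      rw [hv, map_smul] at h1
      rw [← smul_smul, h1, smul_smul, inv_mul_cancel₀ (hc0 g), one_smul]
    have hsum1 := finrank_eq_sum_eig (hq x) ⊤ fun _ _ => trivial
    obtain ⟨μ0, hμ0⟩ : ∃ μ0 : L, eig (ρ x) μ0 ≠ ⊥ := by
      by_contra hcon
      push Not at hcon
      rw [finrank_top, hV, Finset.sum_eq_zero fun μ _ => by rw [hcon μ, inf_bot_eq, finrank_bot]] at hsum1
      omega
    set W := eig (ρ x) μ0 with hW
    have hTc : ∀ g ∈ c.ker, cc g = 1 := fun g hg => congrArg Units.val (MonoidHom.mem_ker.1 hg)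
    have hWT : ∀ g ∈ c.ker, ∀ v ∈ W, ρ g v ∈ W := by
      intro g hg v hv
      have := hperm g μ0 v hv
      rwa [hTc g hg, inv_one, one_mul] at this
    have hWN : finrank L W ≤ N := by
      have hlt : W < ⊤ := lt_top_iff_ne_top.2 fun e => hxS ⟨μ0, fun v => mem_eig.1 (show v ∈ W by rw [e]; trivial)⟩
      have := Submodule.finrank_lt hlt.ne
      omega
    have hσ := H25.isCharacter_indFun c.ker (ih (sub W c.ker hWT) hWN (hsubq W c.ker hWT))
    convert hσ using 1
    funext g
    rw [H25.indFun_apply]
    have hTn : c.ker.Normal := inferInstance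
    by_cases hg : g ∈ c.ker
    · -- split along the eigenspaces, which form a single orbit
      have hginv' : ∀ μ : L, ∀ v ∈ eig (ρ g) μ, ρ x v ∈ eig (ρ g) μ := by
        intro μ v hv
        rw [mem_eig] at hv ⊢
        have h1 := hgx g v
        rw [hTc g hg, one_smul, hv, map_smul] at h1
        exact h1
      let O : Finset L := Finset.univ.image fun h : K => (cc h)⁻¹ * μ0
      have hzero : ∀ ν : L, ν ∉ O → eig (ρ x) ν = ⊥ := by
        intro ν hν
        by_contra hne
        apply hred
        set U : Submodule L V := ⨆ h : K, eig (ρ x) ((cc h)⁻¹ * μ0) with hU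
        set U' : Submodule L V := ⨆ μ : {μ : L // μ ∉ O}, eig (ρ x) μ.1 with hU'
        have hmul : ∀ a b : K, cc (a * b) = cc a * cc b := fun a b => congrArg Units.val (map_mul c a b)
        refine ⟨U, fun a => ?_, U', fun a => ?_, ⟨?_, ?_⟩, ?_, ?_⟩
        · intro v hv
          induction hv using Submodule.iSup_induction' with
          | mem h v hv =>
            refine Submodule.mem_iSup_of_mem (a * h) ?_
            have := hperm a _ v hv
            rwa [hmul, mul_inv, mul_assoc]
          | zero => simp
          | add v w _ _ h1 h2 => rw [map_add]; exact add_mem h1 h2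
        · intro v hv
          induction hv using Submodule.iSup_induction' with
          | mem μ v hv =>
            refine Submodule.mem_iSup_of_mem ⟨(cc a)⁻¹ * μ.1, fun hin => μ.2 ?_⟩ (hperm a _ v hv)
            obtain ⟨h, -, hh⟩ := Finset.mem_image.1 hin
            refine Finset.mem_image.2 ⟨a⁻¹ * h, Finset.mem_univ _, ?_⟩
            have h2 : cc a⁻¹ = (cc a)⁻¹ := by
              have := congrArg Units.val (map_inv c a)
              rw [Units.val_inv_eq_inv_val] at this
              exact this
            rw [hmul, h2, mul_inv, inv_inv, mul_assoc, hh, ← mul_assoc, mul_inv_cancel₀ (hc0 a), one_mul]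
          | zero => simp
          | add v w _ _ h1 h2 => rw [map_add]; exact add_mem h1 h2
        · rw [disjoint_iff, Submodule.eq_bot_iff]
          rintro v ⟨hv, hv'⟩
          have h1 : ∀ μ ∉ O, eigProj (ρ x) μ v = 0 := by
            intro μ hμ
            have hle : U ≤ LinearMap.ker (eigProj (ρ x) μ) := iSup_le fun h w hw => by
              rw [LinearMap.mem_ker, eigProj_of_mem hw, if_neg]
              exact fun e => hμ (Finset.mem_image.2 ⟨h, Finset.mem_univ _, e⟩)
            exact hle hv
          have h2 : ∀ μ ∈ O, eigProj (ρ x) μ v = 0 := by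
            intro μ hμ
            have hle : U' ≤ LinearMap.ker (eigProj (ρ x) μ) := iSup_le fun m w hw => by
              rw [LinearMap.mem_ker, eigProj_of_mem hw, if_neg]
              exact fun e => m.2 (e ▸ hμ)
            exact hle hv'
          have := LinearMap.congr_fun (sum_eigProj (ρ x)) v
          rw [LinearMap.sum_apply, Finset.sum_eq_zero fun μ _ => ?_, Module.End.one_apply] at this
          · exact this.symm
          · by_cases hμ : μ ∈ O
            · exact h2 μ hμ
            · exact h1 μ hμ
        · rw [codisjoint_iff, eq_top_iff]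
          intro v _
          rw [← Module.End.one_apply (R := L) v, ← sum_eigProj (ρ x), LinearMap.sum_apply]
          refine Submodule.sum_mem _ fun μ _ => ?_
          by_cases hμ : μ ∈ O
          · obtain ⟨h, -, rfl⟩ := Finset.mem_image.1 hμ
            exact Submodule.mem_sup_left (Submodule.mem_iSup_of_mem h (eigProj_mem (hq x) _ v))
          · exact Submodule.mem_sup_right (Submodule.mem_iSup_of_mem ⟨μ, hμ⟩ (eigProj_mem (hq x) _ v))
        · refine fun e => hμ0 (le_bot_iff.1 ?_)
          rw [← e]
          refine le_trans (le_of_eq ?_) (le_iSup _ (1 : K))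
          rw [show cc 1 = 1 from congrArg Units.val (map_one c), inv_one, one_mul]
        · refine fun e => hne (le_bot_iff.1 ?_)
          rw [← e]
          exact le_iSup (fun μ : {μ : L // μ ∉ O} => eig (ρ x) μ.1) ⟨ν, hν⟩
      have hval : ∀ h : K, Cfsg.extendByZero c.ker (fun t => eigSum ι (sub W c.ker hWT t)) (h⁻¹ * g * h) =
          ∑ μ : L, (finrank L (eig (ρ g) μ ⊓ eig (ρ x) ((cc h)⁻¹ * μ0) : Submodule L V) : ℂ) * iota0 ι μ := by
        intro h
        rw [H25.extendByZero_of_mem _ _ (by simpa using hTn.conj_mem g hg h⁻¹)]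
        simp only [eigSum]
        refine Finset.sum_congr rfl fun μ _ => ?_
        rw [heig]
        congr 2
        have hbb : ∀ v, ρ h (ρ h⁻¹ v) = v := fun v => by
          rw [← Module.End.mul_apply, ← map_mul, mul_inv_cancel, map_one]; rfl
        have hinvc : (cc h⁻¹) = (cc h)⁻¹ := by
          have := congrArg Units.val (map_inv c h)
          rw [Units.val_inv_eq_inv_val] at this
          exact this
        refine LinearEquiv.finrank_eq
          { toFun := fun v => ⟨ρ h v.1, ?_, hperm h μ0 v.1 v.2.1⟩
            map_add' := fun a b => Subtype.ext (map_add _ _ _)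
            map_smul' := fun a b => Subtype.ext (map_smul _ _ _)
            invFun := fun v => ⟨ρ h⁻¹ v.1, ?_, ?_⟩
            left_inv := fun v => Subtype.ext (hinvb h v.1)
            right_inv := fun v => Subtype.ext (hbb v.1) }
        · have h1 := mem_eig.1 v.2.2
          simp only [map_mul, Module.End.mul_apply] at h1
          have h2 := congrArg (ρ h) h1
          rw [hbb, map_smul] at h2
          exact mem_eig.2 h2
        · have := hperm h⁻¹ _ v.1 v.2.2
          rwa [hinvc, inv_inv, ← mul_assoc, mul_inv_cancel₀ (hc0 h), one_mul] at this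
        · refine mem_eig.2 ?_
          simp only [map_mul, Module.End.mul_apply]
          rw [hbb, mem_eig.1 v.2.1, map_smul]
      simp only [hval]
      rw [Finset.sum_comm, Finset.mul_sum, eigSum]
      refine Finset.sum_congr rfl fun μ _ => ?_
      rw [← Finset.sum_mul, ← mul_assoc]
      congr 1
      rw [finrank_eq_sum_eig (hq x) (eig (ρ g) μ) (hginv' μ), Nat.cast_sum]
      rw [← Finset.sum_subset (Finset.subset_univ O) (fun ν _ hν => by
        rw [hzero ν hν, inf_bot_eq, finrank_bot, Nat.cast_zero])]
      rw [← Finset.sum_fiberwise_of_maps_to (g := fun h : K => (cc h)⁻¹ * μ0) (t := O)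
        (fun h _ => Finset.mem_image_of_mem _ (Finset.mem_univ h)), Finset.mul_sum]
      refine Finset.sum_congr rfl fun ν hν => ?_
      obtain ⟨h0, -, rfl⟩ := Finset.mem_image.1 hν
      rw [Finset.sum_congr rfl (g := fun _ : K =>
        (finrank L (eig (ρ g) μ ⊓ eig (ρ x) ((cc h0)⁻¹ * μ0) : Submodule L V) : ℂ))
        fun h hh => by rw [(Finset.mem_filter.1 hh).2], Finset.sum_const, nsmul_eq_mul]
      have hμ00 : μ0 ≠ 0 := by
        rintro rfl
        obtain ⟨u, hu, hu0⟩ := Submodule.exists_mem_ne_zero_of_ne_bot hμ0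
        exact hxinv u hu0 (by rw [mem_eig.1 hu, zero_smul])
      have hfib : (Finset.univ.filter fun h : K => (cc h)⁻¹ * μ0 = (cc h0)⁻¹ * μ0).card = Nat.card c.ker := by
        rw [Nat.card_eq_fintype_card, ← Fintype.card_subtype]
        refine Fintype.card_congr ((Equiv.mulLeft h0⁻¹).subtypeEquiv fun h => ?_)
        rw [mul_left_inj' hμ00, inv_inj]
        constructor
        · intro e
          exact MonoidHom.mem_ker.2 (by
            show c (h0⁻¹ * h) = 1
            rw [map_mul, map_inv, inv_mul_eq_one]
            exact Units.ext e.symm)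
        · intro e
          have e' : c h0 = c h := inv_mul_eq_one.1 (by rw [← map_inv, ← map_mul]; exact MonoidHom.mem_ker.1 e)
          exact (congrArg Units.val e').symm
      rw [hfib, ← mul_assoc, inv_mul_cancel₀ (by exact_mod_cast Nat.card_pos.ne'), one_mul]
    · rw [Finset.sum_eq_zero fun h _ => H25.extendByZero_of_notMem _ _
        (fun hm => hg (by have := hTn.conj_mem _ hm h; simpa [mul_assoc] using this)), mul_zero]
      have hsym : ∀ μ : L, finrank L (eig (ρ g) (cc g * μ)) = finrank L (eig (ρ g) μ) := by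
        intro μ
        have hxx : ∀ v : V, ρ x (ρ x⁻¹ v) = v := fun v => by
          rw [← Module.End.mul_apply, ← map_mul, mul_inv_cancel, map_one]; rfl
        have hto : ∀ v ∈ eig (ρ g) μ, ρ x v ∈ eig (ρ g) (cc g * μ) := fun v hv =>
          mem_eig.2 (by rw [hgx, mem_eig.1 hv, map_smul, smul_smul])
        have hfrom : ∀ v ∈ eig (ρ g) (cc g * μ), ρ x⁻¹ v ∈ eig (ρ g) μ := by
          intro v hv
          refine mem_eig.2 ?_
          have h1 := hgx g (ρ x⁻¹ v)
          rw [hxx, mem_eig.1 hv, mul_smul] at h1
          have h2 : μ • v = ρ x (ρ g (ρ x⁻¹ v)) := (smul_right_injective V (hc0 g)) h1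
          rw [← hinvb x (ρ g (ρ x⁻¹ v)), ← h2, map_smul]
        exact (LinearEquiv.finrank_eq
          { toFun := fun v => ⟨ρ x v.1, hto _ v.2⟩
            map_add' := fun a b => Subtype.ext (map_add _ _ _)
            map_smul' := fun a b => Subtype.ext (map_smul _ _ _)
            invFun := fun v => ⟨ρ x⁻¹ v.1, hfrom _ v.2⟩
            left_inv := fun v => Subtype.ext (hinvb x v.1)
            right_inv := fun v => Subtype.ext (hxx v.1) }).symm
      have hroot : iota0 ι (cc g) ≠ 1 := fun e => hg (MonoidHom.mem_ker.2 (hι (by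
        rw [map_one]; exact Units.ext ((iota0_unit ι (c g)).symm.trans e))))
      have h1 : eigSum ι (ρ g) = iota0 ι (cc g) * eigSum ι (ρ g) := by
        rw [eigSum, Finset.mul_sum]
        refine (Fintype.sum_equiv (Equiv.mulLeft₀ (cc g) (hc0 g)) _ _ fun μ => ?_).symm
        show _ = (finrank L (eig (ρ g) (cc g * μ)) : ℂ) * iota0 ι (cc g * μ)
        rw [hsym, iota0_mul]; ring
      have h2 : (1 - iota0 ι (cc g)) * eigSum ι (ρ g) = 0 := by rw [sub_mul, one_mul, sub_eq_zero]; exact h1
      exact (mul_eq_zero.1 h2).resolve_left (sub_ne_zero.2 hroot.symm)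

end Cfsg.Agent.H42.Cuspidal
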