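/-
Brauer's lift: the sum of lifted eigenvalues of a matrix representation over a finite field is a
generalised character.
-/
import Cfsg.Agent.H42.Cuspidal.NilpotentLift
import Cfsg.Agent.H27.Induction

set_option autoImplicit false

open Polynomial Module

namespace Cfsg.Agent.H42.Cuspidal

universe u w

variable {L : Type w} [Field L] [Fintype L] {F : Type*} [Field F] [Fintype F] [Algebra F L]

/-- The lifted sum of the roots of a polynomial. -/
noncomputable def rootSum (ι : Lˣ →* ℂˣ) (P : F[X]) : ℂ :=
  ((P.map (algebraMap F L)).roots.map (iota0 ι)).sum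

omit [Fintype L] [Fintype F] in
theorem rootSum_mul (ι : Lˣ →* ℂˣ) {P Q : F[X]} (hP : P ≠ 0) (hQ : Q ≠ 0) :
    rootSum ι (P * Q) = rootSum ι P + rootSum ι Q := by
  rw [rootSum, rootSum, rootSum, Polynomial.map_mul, roots_mul (mul_ne_zero
    ((Polynomial.map_ne_zero_iff (algebraMap F L).injective).2 hP)
    ((Polynomial.map_ne_zero_iff (algebraMap F L).injective).2 hQ)), Multiset.map_add, Multiset.sum_add]

/-- The projection of a finite nilpotent group onto the part of order prime to `p`. -/
theorem exists_prime_to_part {E : Type u} [Group E] [Finite E] [Group.IsNilpotent E] (p : ℕ) (hp : p.Prime) :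
    ∃ π : E →* E, ∃ k : ℕ, (∀ e, (orderOf (π e)).Coprime p) ∧
      ∀ e, ∃ u : E, e = π e * u ∧ Commute (π e) u ∧ u ^ (p ^ k) = 1 := by
  classical
  let φ := Sylow.directProductOfNormal (G := E) (fun {q} _ P => inferInstance)
  let cut : (∀ q : (Nat.card E).primeFactors, ∀ P : Sylow q.1 E, (P : Subgroup E)) →* (∀ q : (Nat.card E).primeFactors, ∀ P : Sylow q.1 E, (P : Subgroup E)) :=
    { toFun := fun f q => if q.1 = p then 1 else f q
      map_one' := by funext q; simp
      map_mul' := fun f g => by funext q; by_cases h : q.1 = p <;> simp [h] }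
  refine ⟨φ.toMonoidHom.comp (cut.comp φ.symm.toMonoidHom), (Nat.card E).factorization p, fun e => ?_, fun e => ?_⟩
  · have hpow : cut (φ.symm e) ^ (Nat.card E / p ^ (Nat.card E).factorization p) = 1 := by
      funext q P
      haveI : Fact q.1.Prime := ⟨Nat.prime_of_mem_primeFactors q.2⟩
      by_cases h : q.1 = p
      · simp [cut, h]
      · refine orderOf_dvd_iff_pow_eq_one.1 (dvd_trans (orderOf_dvd_natCard _) ?_)
        rw [Sylow.card_eq_multiplicity]
        refine (Nat.Coprime.pow _ ((Nat.card E).factorization p) ((Nat.coprime_primes Fact.out hp).2 h)).dvd_of_dvd_mul_left ?_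
        rw [Nat.mul_div_cancel' (Nat.ordProj_dvd _ _)]
        exact Nat.ordProj_dvd _ _
    refine Nat.Coprime.coprime_dvd_left (orderOf_dvd_of_pow_eq_one (?_ :
      (φ.toMonoidHom.comp (cut.comp φ.symm.toMonoidHom)) e ^ (Nat.card E / p ^ (Nat.card E).factorization p) = 1)) ?_
    · show φ (cut (φ.symm e)) ^ _ = 1
      rw [← map_pow, hpow, map_one]
    · exact (Nat.coprime_ordCompl hp Nat.card_pos.ne').symm
  · let u : (∀ q : (Nat.card E).primeFactors, ∀ P : Sylow q.1 E, (P : Subgroup E)) := fun q => if q.1 = p then φ.symm e q else 1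
    refine ⟨φ u, ?_, ?_, ?_⟩
    · show e = φ (cut (φ.symm e)) * φ u
      rw [← map_mul]
      refine φ.symm.injective ?_
      rw [MulEquiv.symm_apply_apply]
      funext q
      by_cases h : q.1 = p <;> simp [cut, u, h]
    · refine Commute.map (f := φ) (?_ : Commute (cut (φ.symm e)) u)
      show cut (φ.symm e) * u = u * cut (φ.symm e)
      funext q
      by_cases h : q.1 = p <;> simp [cut, u, h]
    · rw [← map_pow]
      refine (map_eq_one_iff φ φ.injective).2 (funext fun q => funext fun P => ?_)
      haveI : Fact q.1.Prime := ⟨Nat.prime_of_mem_primeFactors q.2⟩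
      by_cases h : q.1 = p
      · show ((u q P) ^ _) = 1
        refine orderOf_dvd_iff_pow_eq_one.1 (dvd_trans (orderOf_dvd_natCard _) ?_)
        rw [Sylow.card_eq_multiplicity, h]
      · simp [u, h]

omit [Fintype L] [Algebra F L] in
theorem charpoly_pow_card_pow {w : ℕ} (A : Matrix (Fin w) (Fin w) F) (j : ℕ) :
    (A ^ (Fintype.card F ^ j)).charpoly = A.charpoly := by
  induction j with
  | zero => simp
  | succ j ih => rw [pow_succ, pow_mul, FiniteField.Matrix.charpoly_pow_card, ih]

/-- Brauer's lift. -/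
theorem rootSum_mem_genChars (ι : Lˣ →* ℂˣ) (hι : Function.Injective ι) (p : ℕ) [Fact p.Prime] [CharP F p]
    {n e0 : ℕ} (hcard : Fintype.card L = Fintype.card F ^ e0) (hn : ∀ d, 0 < d → d ≤ n → d ∣ e0)
    {G : Type u} [Group G] [Fintype G] {w : ℕ} (hw : w ≤ n) (M : G →* Matrix (Fin w) (Fin w) F) :
    (fun g => rootSum ι (M g).charpoly) ∈ H27.genChars G := by
  classical
  refine H27.mem_genChars_of_elementary (fun g h => ?_) fun E ℓ hℓ hE => ?_
  · have hu : IsUnit (M h) := (Group.isUnit h).map M
    obtain ⟨U, hU⟩ := hu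
    congr 1
    rw [map_mul, map_mul, ← hU]
    have hinv : M h⁻¹ = (↑U⁻¹ : Matrix (Fin w) (Fin w) F) := by
      refine (Units.inv_eq_of_mul_eq_one_right ?_).symm
      rw [hU, ← map_mul, mul_inv_cancel, map_one]
    rw [hinv, Matrix.coe_units_inv, Matrix.charpoly_units_conj]
  haveI := H27.isNilpotent_of_isElementary hℓ hE
  obtain ⟨π, k, hπ, hu⟩ := exists_prime_to_part (E := E) p Fact.out
  let ρ : E →* Module.End L (Fin w → L) :=
    ((Matrix.toLinAlgEquiv' : Matrix (Fin w) (Fin w) L ≃ₐ[L] _).toMonoidHom).comp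
      (((algebraMap F L).mapMatrix : Matrix (Fin w) (Fin w) F →+* Matrix (Fin w) (Fin w) L).toMonoidHom.comp
        (M.comp (E.subtype.comp π)))
  have hq : ∀ e, ρ e ^ Fintype.card L = ρ e := by
    intro e
    set A := M ((π e : E) : G) with hA
    have hAm : A ^ orderOf (π e) = 1 := by
      rw [hA, ← map_pow, ← SubgroupClass.coe_pow, pow_orderOf_eq_one, Subgroup.coe_one, map_one]
    have hsep : Squarefree ((X : F[X]) ^ orderOf (π e) - 1) := by
      refine (X_pow_sub_one_separable_iff.2 ?_).squarefree
      rw [Ne, CharP.cast_eq_zero_iff F p]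
      exact ((Fact.out : p.Prime).coprime_iff_not_dvd).1 (hπ e).symm
    have hint : IsIntegral F A := Algebra.IsIntegral.isIntegral A
    have hsq : Squarefree (minpoly F A) := hsep.squarefree_of_dvd (minpoly.dvd F A (by simp [hAm]))
    set Y : F[X] := X ^ Fintype.card L - X with hY
    have hfac : ∀ f ∈ UniqueFactorizationMonoid.normalizedFactors (minpoly F A), f ∣ Y := by
      intro f hf
      have hirr := UniqueFactorizationMonoid.irreducible_of_normalized_factor f hf
      have hdvd := (UniqueFactorizationMonoid.dvd_of_mem_normalizedFactors hf).trans (Matrix.minpoly_dvd_charpoly A)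
      have hdeg : f.natDegree ≤ w := by
        have := Polynomial.natDegree_le_of_dvd hdvd (Matrix.charpoly_monic A).ne_zero
        rwa [Matrix.charpoly_natDegree_eq_dim, Fintype.card_fin] at this
      have := (hirr.natDegree_dvd_iff_dvd_X_pow_card_pow_sub_X (n := e0)).1
        (hn _ hirr.natDegree_pos (hdeg.trans hw))
      rwa [Nat.card_eq_fintype_card, ← hcard] at this
    have hmin : minpoly F A ∣ Y := by
      refine hsq.isRadical (UniqueFactorizationMonoid.normalizedFactors (minpoly F A)).card Y ?_
      refine (UniqueFactorizationMonoid.prod_normalizedFactors (minpoly.ne_zero hint)).symm.dvd.trans ?_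
      have := Multiset.prod_dvd_prod_of_dvd (S := UniqueFactorizationMonoid.normalizedFactors (minpoly F A)) id
        (fun _ => Y) hfac
      simpa [Multiset.map_const'] using this
    have hA0 : A ^ Fintype.card L = A := by
      have h0 : aeval A Y = 0 := by
        obtain ⟨r, hr⟩ := hmin
        rw [hr, map_mul, minpoly.aeval, zero_mul]
      simpa [hY, sub_eq_zero] using h0
    show (Matrix.toLinAlgEquiv' ((algebraMap F L).mapMatrix A)) ^ _ = Matrix.toLinAlgEquiv' ((algebraMap F L).mapMatrix A)
    rw [← map_pow, ← map_pow, hA0]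
  have hchar := isCharacter_eigSum ι hι _ ρ le_rfl hq
  have hval : (fun e : E => rootSum ι (M (e : G)).charpoly) = fun e => eigSum ι (ρ e) := by
    funext e
    obtain ⟨v, hv, hcm, hvp⟩ := hu e
    obtain ⟨r, hr⟩ := FiniteField.card F p
    have hQ : (v : E) ^ (Fintype.card F ^ k) = 1 := by
      rw [hr.2]
      obtain ⟨t, ht⟩ : p ^ k ∣ (p ^ (r : ℕ)) ^ k := pow_dvd_pow_of_dvd (dvd_pow_self p r.ne_zero) k
      rw [ht, pow_mul, hvp, one_pow]
    have h1 : (M (e : G)).charpoly = (M ((π e : E) : G)).charpoly := by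
      rw [← charpoly_pow_card_pow (M (e : G)) k, ← charpoly_pow_card_pow (M ((π e : E) : G)) k,
        ← map_pow, ← map_pow, ← SubgroupClass.coe_pow, ← SubgroupClass.coe_pow]
      conv_lhs => rw [hv, hcm.mul_pow, hQ, mul_one]
    rw [h1, rootSum, ← Matrix.charpoly_map, eigSum, Finset.sum_multiset_map_count]
    have hρc : (ρ e).charpoly = ((M ((π e : E) : G)).map (algebraMap F L)).charpoly := Matrix.charpoly_toLin' _
    rw [Finset.sum_subset (Finset.subset_univ _) (fun μ _ hμ => by
      rw [Multiset.mem_toFinset] at hμ; rw [Multiset.count_eq_zero.2 hμ, zero_smul])]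
    refine Finset.sum_congr rfl fun μ _ => ?_
    rw [count_roots, nsmul_eq_mul, ← hρc, rootMultiplicity_charpoly (hq e)]
  exact hval ▸ H27.mem_genChars_of_isCharacter hchar

end Cfsg.Agent.H42.Cuspidal
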