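/-
Weighted Moebius sums in a finite semisimple module over a polynomial ring.
-/
import Cfsg.Agent.H42.StValues.Mobius

set_option autoImplicit false

open Polynomial Submodule Cfsg.Agent.H42.StValues

namespace Cfsg.Agent.H42.Cuspidal

variable {F : Type*} [Field F] {M : Type*} [AddCommGroup M] [Module F[X] M] [Module F M]
  [IsScalarTower F F[X] M] [Fintype F] [Module.Finite F M] [IsSemisimpleModule F[X] M]
  [Fintype (Submodule F[X] M)]
  (S : Finset F[X]) (hS : ∀ g ∈ S, g.Monic ∧ Irreducible g)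
  (T : Multiset F[X]) (hT : ∀ g ∈ T, g ∈ S) (hkill : ∀ w : M, T.prod • w = 0)
include hS hT hkill

open scoped Classical in
/-- The complements of a simple summand carry the opposite total weight. -/
theorem class_sum {f : F[X]} (hfS : f ∈ S) {v : M} (hv0 : v ≠ 0) (hv : f • v = 0)
    {U' : Submodule F[X] M} (hU' : (F[X] ∙ v) ≤ U') :
    ∑ W ∈ Finset.univ.filter (fun W => W ⊓ (F[X] ∙ v) = ⊥ ∧ W ⊔ (F[X] ∙ v) = U'), mu S W = -mu S U' := by
  obtain ⟨hfm, hf⟩ := hS f hfS
  haveI : Finite M := Module.finite_of_finite F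
  set L := (F[X] ∙ v)
  obtain ⟨W₀, hW₀', hW₀s⟩ := exists_compl_le hU'
  have hW₀ : W₀ ⊓ L = ⊥ := by rw [inf_comm]; exact hW₀'
  have hW₀s' : W₀ ⊔ L = U' := by rw [sup_comm]; exact hW₀s
  set k := Nat.card ↥(W₀ ⊓ kerBy f) with hk
  set C := Finset.univ.filter (fun W : Submodule F[X] M => W ⊓ L = ⊥ ∧ W ⊔ L = U') with hC
  have hcard : C.card = k := by
    rw [hk, ← card_compl_eq T (fun g hg => hS g (hT g hg)) hkill hfm hf hv0 hv hW₀, hC, hW₀s',
      Nat.card_eq_fintype_card, Fintype.card_subtype]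
  have hk0 : (k : ℤ) ≠ 0 := by
    have : Nonempty ↥(W₀ ⊓ kerBy f) := ⟨0⟩
    exact_mod_cast (Nat.card_pos (α := ↥(W₀ ⊓ kerBy f))).ne'
  have hval : ∀ W ∈ C, (k : ℤ) * mu S W = -mu S U' := by
    intro W hW
    simp only [hC, Finset.mem_filter, Finset.mem_univ, true_and] at hW
    have hWk : Nat.card ↥(W ⊓ kerBy f) = k := by
      have h2 := congrArg (fun X => fdim (F := F) (X ⊓ kerBy f)) (hW.2.trans hW₀s'.symm)
      simp only [sup_inf_kerBy hW.1, sup_inf_kerBy hW₀, fdim_sup (inf_kerBy_disjoint hW.1 f),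
        fdim_sup (inf_kerBy_disjoint hW₀ f)] at h2
      rw [hk, card_eq_pow_fdim, card_eq_pow_fdim, add_right_cancel h2]
    have := mu_sup_span S hS hfS hv0 hv hW.1
    rw [hWk, hW.2] at this
    rw [this, neg_neg]
  have hsum : (k : ℤ) * ∑ W ∈ C, mu S W = (k : ℤ) * -mu S U' := by
    rw [Finset.mul_sum, Finset.sum_congr rfl hval, Finset.sum_const, hcard, nsmul_eq_mul]
  exact mul_left_cancel₀ hk0 hsum

open scoped Classical in
/-- Grouping a weighted sum by the join with a simple summand. -/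
theorem sum_by_classes {R : Type*} [CommRing R] {f : F[X]} (hfS : f ∈ S) {v : M} (hv0 : v ≠ 0) (hv : f • v = 0)
    {U : Submodule F[X] M} (hvU : (F[X] ∙ v) ≤ U) (φ ψ : Submodule F[X] M → R)
    (hφ : ∀ W ≤ U, W ⊓ (F[X] ∙ v) = ⊥ → φ W = ψ (W ⊔ (F[X] ∙ v))) :
    ∑ W ∈ Finset.univ.filter (fun W => W ≤ U), φ W * (mu S W : R) =
      ∑ U' ∈ Finset.univ.filter (fun U' => (F[X] ∙ v) ≤ U' ∧ U' ≤ U), (φ U' - ψ U') * (mu S U' : R) := by
  obtain ⟨hfm, hf⟩ := hS f hfS
  set L := (F[X] ∙ v) with hL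
  rw [← Finset.sum_fiberwise_of_maps_to (g := fun W => W ⊔ L)
    (t := Finset.univ.filter fun W => L ≤ W ∧ W ≤ U) (fun W hW => by
      simp only [Finset.mem_filter, Finset.mem_univ, true_and] at hW ⊢
      exact ⟨le_sup_right, sup_le hW hvU⟩)]
  refine Finset.sum_congr rfl fun U' hU' => ?_
  simp only [Finset.mem_filter, Finset.mem_univ, true_and] at hU'
  obtain ⟨hLU', hU'U⟩ := hU'
  set C := Finset.univ.filter (fun W : Submodule F[X] M => W ⊓ L = ⊥ ∧ W ⊔ L = U') with hC
  have hset : (Finset.univ.filter fun W => W ≤ U).filter (fun W => W ⊔ L = U') = insert U' C := by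
    ext W
    simp only [Finset.mem_filter, Finset.mem_univ, true_and, Finset.mem_insert, hC]
    constructor
    · rintro ⟨-, hW⟩
      rcases span_le_or_inf_eq_bot hf hv W with h | h
      · exact Or.inl (by rw [← hW, sup_eq_left.2 h])
      · exact Or.inr ⟨h, hW⟩
    · rintro (rfl | ⟨-, hW⟩)
      · exact ⟨hU'U, sup_eq_left.2 hLU'⟩
      · exact ⟨(le_sup_left.trans hW.le).trans hU'U, hW⟩
  have hnot : U' ∉ C := by
    simp only [hC, Finset.mem_filter, Finset.mem_univ, true_and, not_and]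
    intro h
    rw [inf_eq_right.2 hLU', hL, Submodule.span_singleton_eq_bot] at h
    exact absurd h hv0
  rw [hset, Finset.sum_insert hnot, Finset.sum_congr rfl (g := fun W => ψ U' * (mu S W : R)) fun W hW => by
    simp only [hC, Finset.mem_filter, Finset.mem_univ, true_and] at hW
    rw [hφ W ((le_sup_left.trans hW.2.le).trans hU'U) hW.1, hW.2], ← Finset.mul_sum, ← Int.cast_sum,
    class_sum S hS T hT hkill hfS hv0 hv hLU', Int.cast_neg]
  ring

open scoped Classical in
/-- The interval above a simple summand is a copy of the submodules of a complement. -/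
theorem sum_above {R : Type*} [CommRing R] {f : F[X]} (hfS : f ∈ S) {v : M} (hv0 : v ≠ 0) (hv : f • v = 0)
    {U S₀ : Submodule F[X] M} (hd : (F[X] ∙ v) ⊓ S₀ = ⊥) (hs : (F[X] ∙ v) ⊔ S₀ = U)
    (φ : Submodule F[X] M → R) :
    ∑ U' ∈ Finset.univ.filter (fun U' => (F[X] ∙ v) ≤ U' ∧ U' ≤ U), φ U' * (mu S U' : R) =
      -∑ W ∈ Finset.univ.filter (fun W => W ≤ S₀),
        φ (W ⊔ (F[X] ∙ v)) * ((Nat.card ↥(W ⊓ kerBy f) : ℤ) : R) * (mu S W : R) := by
  set L := (F[X] ∙ v) with hL
  have hinf : ∀ W ≤ S₀, W ⊓ L = ⊥ := fun W hW =>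
    le_bot_iff.1 ((inf_le_inf_right _ hW).trans (by rw [inf_comm]; exact hd.le))
  rw [← Finset.sum_neg_distrib]
  symm
  refine Finset.sum_bij (fun W _ => W ⊔ L) (fun W hW => ?_) (fun a ha b hb e => ?_) (fun U' hU' => ?_)
    (fun W hW => ?_)
  · simp only [Finset.mem_filter, Finset.mem_univ, true_and] at hW ⊢
    exact ⟨le_sup_right, sup_le (hW.trans (le_sup_right.trans hs.le)) (le_sup_left.trans hs.le)⟩
  · simp only [Finset.mem_filter, Finset.mem_univ, true_and] at ha hb
    have h := congrArg (fun X => X ⊓ S₀) e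
    simp only [sup_inf_assoc_of_le _ ha, sup_inf_assoc_of_le _ hb, hd, sup_bot_eq] at h
    exact h
  · simp only [Finset.mem_filter, Finset.mem_univ, true_and] at hU'
    refine ⟨U' ⊓ S₀, by simp, ?_⟩
    rw [inf_comm, sup_comm, ← sup_inf_assoc_of_le _ hU'.1, hs, inf_eq_right.2 hU'.2]
  · simp only [Finset.mem_filter, Finset.mem_univ, true_and] at hW
    rw [mu_sup_span S hS hfS hv0 hv (hinf W hW)]
    push_cast; ring

open scoped Classical in
/-- Moebius sums weighted by powers of the size of the `f`-part. -/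
theorem sum_pow_eq {f : F[X]} (hfS : f ∈ S) : ∀ (N : ℕ) (U : Submodule F[X] M) (c : ℕ), fdim (F := F) U ≤ N →
    ∑ W ∈ Finset.univ.filter (fun W => W ≤ U), ((Nat.card ↥(W ⊓ kerBy f) : ℤ) ^ c) * mu S W =
      if U ≤ kerBy f then
        ∏ i ∈ Finset.range (mult f U), (1 - ((Fintype.card F : ℤ) ^ f.natDegree) ^ (c + i))
      else 0 := by
  haveI : Finite M := Module.finite_of_finite F
  obtain ⟨hfm, hf⟩ := hS f hfS
  intro N
  induction N with
  | zero =>
    intro U c hU
    have hU0 : U = ⊥ := by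
      have h := card_eq_pow_fdim (F := F) U
      rw [Nat.le_zero.1 hU, pow_zero] at h
      haveI : Subsingleton U := (Nat.card_eq_one_iff_unique.1 h).1
      exact Submodule.eq_bot_of_subsingleton
    subst hU0
    have hm : mult f (⊥ : Submodule F[X] M) = 0 := by
      have : Subsingleton ↥((⊥ : Submodule F[X] M) ⊓ kerBy f) := by rw [bot_inf_eq]; infer_instance
      rw [mult, fdim, Module.finrank_zero_of_subsingleton, Nat.zero_div]
    rw [if_pos bot_le, hm, Finset.range_zero, Finset.prod_empty]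
    have : Finset.univ.filter (fun W : Submodule F[X] M => W ≤ ⊥) = {⊥} := by ext W; simp
    rw [this, Finset.sum_singleton, mu_bot, bot_inf_eq, Nat.card_unique]
    simp
  | succ N ih =>
    intro U c hU
    by_cases hU0 : U = ⊥
    · subst hU0; exact ih ⊥ c (by
        have : Subsingleton ↥(⊥ : Submodule F[X] M) := inferInstance
        rw [fdim, Module.finrank_zero_of_subsingleton]; exact Nat.zero_le _)
    obtain ⟨w, hw, hw0⟩ := Submodule.exists_mem_ne_zero_of_ne_bot hU0
    obtain ⟨g, hgT, v, hvU, hv0, hv⟩ := exists_kerBy_ne T U w hw hw0 (hkill w)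
    obtain ⟨hgm, hg⟩ := hS g (hT g hgT)
    set L := (F[X] ∙ v) with hL
    have hLU : L ≤ U := (Submodule.span_singleton_le_iff_mem v U).2 hvU
    obtain ⟨S₀, hd, hs⟩ := exists_compl_le hLU
    have hfd : fdim (F := F) S₀ ≤ N := by
      have h := fdim_sup hd
      rw [hs, fdim_span hg hv0 hv] at h
      have := hg.natDegree_pos
      omega
    by_cases hgf : g = f
    · subst hgf
      rw [← Nat.cast_pow] at *
      have hQ : Nat.card ↥(L ⊓ kerBy g) = Fintype.card F ^ g.natDegree := by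
        rw [inf_eq_left.2 (span_le_kerBy hv), card_eq_pow_fdim, fdim_span hg hv0 hv]
      have hmul : ∀ W, W ⊓ L = ⊥ → Nat.card ↥((W ⊔ L) ⊓ kerBy g) =
          Nat.card ↥(W ⊓ kerBy g) * Fintype.card F ^ g.natDegree := fun W hW => by
        rw [sup_inf_kerBy hW, card_sup (inf_kerBy_disjoint hW g), hQ]
      set Qz : ℤ := ((Fintype.card F ^ g.natDegree : ℕ) : ℤ) with hQz
      have hQ0 : Qz ≠ 0 := by
        rw [hQz]; exact_mod_cast (pow_pos Fintype.card_pos _).ne'
      -- compare with the weight divided by the size of a simple summand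
      have key : Qz ^ c * ∑ W ∈ Finset.univ.filter (fun W => W ≤ U), ((Nat.card ↥(W ⊓ kerBy g) : ℤ) ^ c) * mu S W =
          Qz ^ c * ((1 - Qz ^ c) * ∑ W ∈ Finset.univ.filter (fun W => W ≤ S₀),
            ((Nat.card ↥(W ⊓ kerBy g) : ℤ) ^ (c + 1)) * mu S W) := by
        rw [Finset.mul_sum, Finset.sum_congr rfl fun W _ => (mul_assoc _ _ _).symm]
        have h1 := sum_by_classes S hS T hT hkill (R := ℤ) hfS hv0 hv hLU
          (fun W => Qz ^ c * (Nat.card ↥(W ⊓ kerBy g) : ℤ) ^ c) (fun W => (Nat.card ↥(W ⊓ kerBy g) : ℤ) ^ c)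
          (fun W _ hW => by rw [hmul W hW, Nat.cast_mul, mul_pow, mul_comm, hQz])
        simp only [Int.cast_id] at h1
        rw [h1]
        have h2 := sum_above S hS T hT hkill (R := ℤ) hfS hv0 hv hd hs
          (fun W => Qz ^ c * (Nat.card ↥(W ⊓ kerBy g) : ℤ) ^ c - (Nat.card ↥(W ⊓ kerBy g) : ℤ) ^ c)
        simp only [Int.cast_id] at h2
        rw [h2, Finset.mul_sum, Finset.mul_sum, ← Finset.sum_neg_distrib]
        refine Finset.sum_congr rfl fun W hW => ?_
        simp only [Finset.mem_filter, Finset.mem_univ, true_and] at hW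
        rw [hmul W (le_bot_iff.1 ((inf_le_inf_right _ hW).trans (by rw [inf_comm]; exact hd.le))), Nat.cast_mul,
          mul_pow, hQz, pow_succ]
        ring
      rw [mul_left_cancel₀ (pow_ne_zero _ hQ0) key, ih S₀ (c + 1) hfd]
      have hle : U ≤ kerBy g ↔ S₀ ≤ kerBy g := by
        rw [← hs, sup_le_iff]; exact and_iff_right (span_le_kerBy hv)
      by_cases hk : S₀ ≤ kerBy g
      · have hm : mult g U = mult g S₀ + 1 := by
          rw [mult, mult, ← hs, sup_inf_kerBy hd, fdim_sup (inf_kerBy_disjoint hd g),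
            inf_eq_left.2 (span_le_kerBy hv), fdim_span hg hv0 hv, Nat.add_div_left _ hg.natDegree_pos]
        rw [if_pos hk, if_pos (hle.2 hk), hm, Finset.prod_range_succ', mul_comm, hQz]
        push_cast
        congr 1
        exact Finset.prod_congr rfl fun i _ => by rw [show c + (i + 1) = c + 1 + i by omega]
      · rw [if_neg hk, if_neg (fun h => hk (hle.1 h)), mul_zero]
    · have hnd : ¬ g ∣ f := fun hdv => hgf (eq_of_monic_of_associated hgm hfm (hg.associated_of_dvd hf hdv))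
      have hz : L ⊓ kerBy f = ⊥ :=
        le_bot_iff.1 ((inf_le_inf_right _ (span_le_kerBy hv)).trans (kerBy_inf_of_not_dvd hg hnd).le)
      have hsame : ∀ W, W ⊓ L = ⊥ → Nat.card ↥((W ⊔ L) ⊓ kerBy f) = Nat.card ↥(W ⊓ kerBy f) := fun W hW => by
        rw [sup_inf_kerBy hW, hz, sup_bot_eq]
      have h1 := sum_by_classes S hS T hT hkill (R := ℤ) (hT g hgT) hv0 hv hLU
        (fun W => (Nat.card ↥(W ⊓ kerBy f) : ℤ) ^ c) (fun W => (Nat.card ↥(W ⊓ kerBy f) : ℤ) ^ c)
        (fun W _ hW => by rw [hsame W hW])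
      simp only [Int.cast_id, sub_self, zero_mul, Finset.sum_const_zero] at h1
      rw [h1, if_neg]
      intro hle
      have := hz ▸ le_inf le_rfl (hLU.trans hle)
      exact hv0 (by simpa [hL, Submodule.span_singleton_eq_bot] using le_bot_iff.1 this)

open scoped Classical in
/-- An additive weight only sees the type of the module. -/
theorem sum_additive_eq {R : Type*} [CommRing R] {f : F[X]} (hfS : f ∈ S) {v : M} (hv0 : v ≠ 0) (hv : f • v = 0)
    {U : Submodule F[X] M} (hvU : v ∈ U) (φ : Submodule F[X] M → R) (s : R)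
    (hφ : ∀ W ≤ U, W ⊓ (F[X] ∙ v) = ⊥ → φ (W ⊔ (F[X] ∙ v)) = φ W + s) :
    ∑ W ∈ Finset.univ.filter (fun W => W ≤ U), φ W * (mu S W : R) =
      if U ≤ kerBy f then
        -(s * ((∏ i ∈ Finset.Ico 1 (mult f U), (1 - ((Fintype.card F : ℤ) ^ f.natDegree) ^ i) : ℤ) : R))
      else 0 := by
  haveI : Finite M := Module.finite_of_finite F
  obtain ⟨hfm, hf⟩ := hS f hfS
  have hLU : (F[X] ∙ v) ≤ U := (Submodule.span_singleton_le_iff_mem v U).2 hvU
  obtain ⟨S₀, hd, hs⟩ := exists_compl_le hLU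
  rw [sum_by_classes S hS T hT hkill hfS hv0 hv hLU φ (fun W => φ W - s)
    (fun W hWU hW => by rw [hφ W hWU hW]; ring)]
  have h2 := sum_above S hS T hT hkill (R := R) hfS hv0 hv hd hs (fun _ => s)
  simp only [sub_sub_cancel]
  rw [h2]
  simp only [mul_assoc, ← Finset.mul_sum, ← Int.cast_mul, ← Int.cast_sum]
  have h3 := sum_pow_eq S hS T hT hkill hfS (fdim (F := F) S₀) S₀ 1 le_rfl
  simp only [pow_one] at h3
  rw [h3]
  have hle : U ≤ kerBy f ↔ S₀ ≤ kerBy f := by
    rw [← hs, sup_le_iff]; exact and_iff_right (span_le_kerBy hv)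
  by_cases hk : S₀ ≤ kerBy f
  · have hm : mult f U = mult f S₀ + 1 := by
      rw [mult, mult, ← hs, sup_inf_kerBy hd, fdim_sup (inf_kerBy_disjoint hd f),
        inf_eq_left.2 (span_le_kerBy hv), fdim_span hf hv0 hv, Nat.add_div_left _ hf.natDegree_pos]
    rw [if_pos hk, if_pos (hle.2 hk), hm, Finset.prod_Ico_eq_prod_range, Nat.add_sub_cancel]
  · rw [if_neg hk, if_neg (fun h => hk (hle.1 h))]; simp

end Cfsg.Agent.H42.Cuspidal
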