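/-
An alternating sum of lifts over chains of invariant subspaces, and its values.
-/
import Cfsg.Agent.H66.SemisimpleGL
import Cfsg.Agent.H42.StValues.Flags
import Cfsg.Agent.H42.Cuspidal.Weights
import Cfsg.Agent.H42.Cuspidal.Lift
import Cfsg.Agent.H42.Cuspidal.FixedSum

set_option autoImplicit false
set_option maxHeartbeats 1000000

open Polynomial Cfsg.Agent.H70 Cfsg.Agent.H42.StValues

namespace Cfsg.Agent.H42.Cuspidal

variable {F : Type*} [Field F] [Fintype F] {L : Type*} [Field L] [Fintype L] [Algebra F L] {n : ℕ}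

/-- A non-zero subspace with a chain below it. -/
def ChainPair (n : ℕ) (F : Type*) [Field F] : Type _ :=
  {ω : Submodule F (Fin n → F) × Finset (Submodule F (Fin n → F)) //
    ω.1 ≠ ⊥ ∧ (∀ x ∈ ω.2, ⊥ < x ∧ x < ω.1) ∧ IsChain (· ≤ ·) (ω.2 : Set (Submodule F (Fin n → F)))}

noncomputable instance chainPairFintype : Fintype (ChainPair n F) := by
  unfold ChainPair
  exact Fintype.ofFinite _

noncomputable instance chainPairDecEq : DecidableEq (ChainPair n F) := Classical.decEq _

theorem glMap_inv_cancel (g : GL (Fin n) F) (U : Submodule F (Fin n → F)) : glMap g⁻¹ (glMap g U) = U := by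
  rw [← glMap_mul, inv_mul_cancel, glMap_one]

theorem glMap_le_iff (g : GL (Fin n) F) {U W : Submodule F (Fin n → F)} : glMap g U ≤ glMap g W ↔ U ≤ W :=
  ⟨fun h => by simpa [glMap_inv_cancel] using glMap_mono g⁻¹ h, glMap_mono g⟩

theorem glMap_lt_iff (g : GL (Fin n) F) {U W : Submodule F (Fin n → F)} : glMap g U < glMap g W ↔ U < W := by
  rw [lt_iff_le_not_ge, lt_iff_le_not_ge, glMap_le_iff, glMap_le_iff]

theorem glMap_bot (g : GL (Fin n) F) : glMap g (⊥ : Submodule F (Fin n → F)) = ⊥ := by
  rw [glMap, Submodule.map_bot]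

open scoped Classical in
noncomputable instance chainPairAction : MulAction (GL (Fin n) F) (ChainPair n F) where
  smul g ω := ⟨(glMap g ω.1.1, ω.1.2.image (glMap g)), fun e => ω.2.1 (by
      simpa [glMap_inv_cancel, glMap_bot] using congrArg (glMap g⁻¹) e), fun x hx => by
      obtain ⟨y, hy, rfl⟩ := Finset.mem_image.1 hx
      obtain ⟨h1, h2⟩ := ω.2.2.1 y hy
      exact ⟨glMap_bot g ▸ (glMap_lt_iff g).2 h1, (glMap_lt_iff g).2 h2⟩, by
      rw [Finset.coe_image]
      rintro _ ⟨a, ha, rfl⟩ _ ⟨b, hb, rfl⟩ hne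
      exact (ω.2.2.2 ha hb fun e => hne (e ▸ rfl)).imp (glMap_mono g) (glMap_mono g)⟩
  one_smul ω := Subtype.ext (Prod.ext (glMap_one _) (by
    show Finset.image (glMap 1) _ = _
    rw [show (glMap (1 : GL (Fin n) F)) = id from funext glMap_one, Finset.image_id]))
  mul_smul g h ω := Subtype.ext (Prod.ext (glMap_mul g h _) (by
    show Finset.image (glMap (g * h)) _ = Finset.image (glMap g) (Finset.image (glMap h) _)
    rw [Finset.image_image]; exact Finset.image_congr fun x _ => glMap_mul g h x))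

theorem smul_fst (g : GL (Fin n) F) (ω : ChainPair n F) : (g • ω).1.1 = glMap g ω.1.1 := rfl

open scoped Classical in
/-- The lifted eigenvalue sum of the restriction to an invariant subspace. -/
noncomputable def subVal (ι : Lˣ →* ℂˣ) (g : GL (Fin n) F) (W : Submodule F (Fin n → F)) : ℂ :=
  if h : ∀ v ∈ W, endo g v ∈ W then rootSum ι ((endo g).restrict h).charpoly else 0

/-- The weight of a pair. -/
noncomputable def pairVal (ι : Lˣ →* ℂˣ) (g : GL (Fin n) F) (ω : ChainPair n F) : ℂ :=
  (-1) ^ ω.1.2.card * subVal ι g ω.1.1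

theorem endo_mem_of_glMap {g : GL (Fin n) F} {W : Submodule F (Fin n → F)} (h : glMap g W ≤ W) :
    ∀ v ∈ W, endo g v ∈ W := fun v hv => h ⟨v, hv, rfl⟩

/-- The chain sum of lifts. -/
noncomputable def chainLift (ι : Lˣ →* ℂˣ) (g : GL (Fin n) F) : ℂ :=
  ∑ ω ∈ Finset.univ.filter (fun ω : ChainPair n F => g • ω = ω), pairVal ι g ω

theorem chainLift_mem_genChars (ι : Lˣ →* ℂˣ) (hι : Function.Injective ι) (p : ℕ) [Fact p.Prime] [CharP F p]
    {e0 : ℕ} (hcard : Fintype.card L = Fintype.card F ^ e0) (hn : ∀ d, 0 < d → d ≤ n → d ∣ e0) [DecidableEq F] :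
    (chainLift ι : GL (Fin n) F → ℂ) ∈ H27.genChars (GL (Fin n) F) := by
  classical
  refine fixedSum_mem_genChars (pairVal ι) (fun g h ω hω => ?_) fun ω => ?_
  · have hW : glMap g ω.1.1 ≤ ω.1.1 := (congrArg (fun o : ChainPair n F => o.1.1) hω).le
    have hW' : glMap (h * g * h⁻¹) (glMap h ω.1.1) ≤ glMap h ω.1.1 := by
      rw [← glMap_mul, inv_mul_cancel_right, glMap_mul]; exact glMap_mono h hW
    have hcard' : (h • ω).1.2.card = ω.1.2.card :=
      Finset.card_image_of_injective _ fun a b e => by simpa [glMap_inv_cancel] using congrArg (glMap h⁻¹) e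
    rw [pairVal, pairVal, hcard', smul_fst, subVal, subVal, dif_pos (endo_mem_of_glMap hW'),
      dif_pos (endo_mem_of_glMap hW)]
    congr 2
    let e : ω.1.1 ≃ₗ[F] glMap h ω.1.1 := Submodule.equivMapOfInjective _ (glMap_injective h) _
    have hc : ((endo (h * g * h⁻¹)).restrict (endo_mem_of_glMap hW')) =
        e.conj ((endo g).restrict (endo_mem_of_glMap hW)) := by
      refine LinearMap.ext fun v => ?_
      obtain ⟨v, rfl⟩ := e.surjective v
      rw [LinearEquiv.conj_apply_apply, e.symm_apply_apply]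
      apply Subtype.ext
      show endo (h * g * h⁻¹) ((h : Matrix (Fin n) (Fin n) F).mulVecLin v.1) =
        (h : Matrix (Fin n) (Fin n) F).mulVecLin (endo g v.1)
      simp [endo, Matrix.mulVec_mulVec, mul_assoc]
    rw [hc, LinearEquiv.charpoly_conj]
  · set W := ω.1.1 with hW
    have hinv : ∀ s : MulAction.stabilizer (GL (Fin n) F) ω, ∀ v ∈ W, endo (s : GL (Fin n) F) v ∈ W := fun s =>
      endo_mem_of_glMap (congrArg (fun o : ChainPair n F => o.1.1) s.2).le
    let r : MulAction.stabilizer (GL (Fin n) F) ω →* Module.End F W :=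
      { toFun := fun s => (endo (s : GL (Fin n) F)).restrict (hinv s)
        map_one' := by refine LinearMap.ext fun v => Subtype.ext ?_; simp [endo]
        map_mul' := fun a b => by
          refine LinearMap.ext fun v => Subtype.ext ?_
          simp [endo, Matrix.mulVec_mulVec] }
    let b := Module.finBasis F W
    have hw : Module.finrank F W ≤ n := (Submodule.finrank_le W).trans (Module.finrank_fin_fun F).le
    have key := rootSum_mem_genChars ι hι p hcard hn hw
      ((LinearMap.toMatrixAlgEquiv b).toMonoidHom.comp r)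
    have hval : (fun s : MulAction.stabilizer (GL (Fin n) F) ω => pairVal ι (s : GL (Fin n) F) ω) =
        ((-1 : ℤ) ^ ω.1.2.card) • fun s => rootSum ι ((LinearMap.toMatrixAlgEquiv b).toMonoidHom.comp r s).charpoly := by
      funext s
      rw [Pi.smul_apply, zsmul_eq_mul, pairVal, subVal, dif_pos (hinv s)]
      push_cast
      congr 2
      exact (LinearMap.charpoly_toMatrix _ b).symm
    rw [hval]
    exact zsmul_mem key _

/-- The lifted eigenvalue sum on a submodule over the polynomial ring. -/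
noncomputable def modVal (ι : Lˣ →* ℂˣ) {M : Type*} [AddCommGroup M] [Module F[X] M] [Module F M]
    [IsScalarTower F F[X] M] [Module.Finite F M] (q : Submodule F[X] M) : ℂ :=
  haveI : Module.Finite F q := Module.Finite.of_injective (q.subtype.restrictScalars F) Subtype.val_injective
  rootSum ι (Algebra.lsmul F F q (X : F[X]) : q →ₗ[F] q).charpoly

omit [Fintype F] in
theorem charpoly_eq_of_intertwine {A B : Type*} [AddCommGroup A] [Module F A] [AddCommGroup B] [Module F B]
    [Module.Finite F A] [Module.Finite F B] (e : A ≃ₗ[F] B) (f : Module.End F A) (f' : Module.End F B)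
    (h : ∀ v, e (f v) = f' (e v)) : f'.charpoly = f.charpoly := by
  have : f' = e.conj f := LinearMap.ext fun v => by
    rw [LinearEquiv.conj_apply_apply, h, e.apply_symm_apply]
  rw [this, LinearEquiv.charpoly_conj]

theorem subVal_toSub (ι : Lˣ →* ℂˣ) (g : GL (Fin n) F) (q : Submodule F[X] (PolyModule g)) :
    subVal ι g (toSub q) = modVal ι q := by
  rw [subVal, dif_pos (endo_mem_of_glMap (toSub_invariant q)), modVal]
  congr 1
  haveI : Module.Finite F q := Module.Finite.of_injective (q.subtype.restrictScalars F) Subtype.val_injective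
  let e : q ≃ₗ[F] toSub q :=
    { toFun := fun v => ⟨(Module.AEval'.of (endo g)).symm v.1, mem_toSub.2 (by
        rw [LinearEquiv.apply_symm_apply]; exact v.2)⟩
      map_add' := fun a b => Subtype.ext (map_add _ _ _)
      map_smul' := fun c a => Subtype.ext (map_smul _ _ _)
      invFun := fun v => ⟨Module.AEval'.of (endo g) v.1, mem_toSub.1 v.2⟩
      left_inv := fun v => Subtype.ext (LinearEquiv.apply_symm_apply _ _)
      right_inv := fun v => Subtype.ext (LinearEquiv.symm_apply_apply _ _) }
  exact charpoly_eq_of_intertwine (A := q) (B := toSub q) e _ _ fun v =>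
    Subtype.ext (Module.AEval.of_symm_X_smul (endo g) v.1)

open scoped Classical in
theorem chainPart_eq_sum_submodules (ι : Lˣ →* ℂˣ) (g : GL (Fin n) F) [Fintype (Submodule F[X] (PolyModule g))]
    (P : Submodule F (Fin n → F) → Prop) :
    ∑ ω ∈ Finset.univ.filter (fun ω : ChainPair n F => g • ω = ω ∧ P ω.1.1), pairVal ι g ω =
      ∑ q ∈ Finset.univ.filter (fun q : Submodule F[X] (PolyModule g) => q ≠ ⊥ ∧ P (toSub q)),
        (chainSum q : ℂ) * modVal ι q := by
  have hbot : toSub (⊥ : Submodule F[X] (PolyModule g)) = ⊥ := by ext v; simp [mem_toSub]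
  have hinv : ∀ ω : ChainPair n F, g • ω = ω →
      glMap g ω.1.1 ≤ ω.1.1 ∧ ∀ x ∈ ω.1.2, glMap g x ≤ x := by
    intro ω hω
    refine ⟨(congrArg (fun o : ChainPair n F => o.1.1) hω).le, fun x hx => ?_⟩
    have h1 : glMap g x ∈ ω.1.2 := by
      rw [← congrArg (fun o : ChainPair n F => o.1.2) hω]; exact Finset.mem_image_of_mem _ hx
    rcases ω.2.2.2.total h1 hx with h | h
    · exact h
    · exact (Submodule.eq_of_le_of_finrank_eq h (finrank_glMap g x).symm).ge
  simp only [chainSum, Int.cast_sum, Finset.sum_mul]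
  rw [Finset.sum_sigma']
  symm
  refine Finset.sum_bij (fun z hz => (⟨(toSub z.1, z.2.image toSub), ?_, ?_, ?_⟩ : ChainPair n F)) ?_ ?_ ?_ ?_
  · simp only [Finset.mem_sigma, Finset.mem_filter, Finset.mem_univ, true_and] at hz
    exact fun e => hz.1.1 (toSub_injective (e.trans hbot.symm))
  · simp only [Finset.mem_sigma, Finset.mem_filter, Finset.mem_univ, true_and, mem_chains] at hz
    intro x hx
    obtain ⟨y, hy, rfl⟩ := Finset.mem_image.1 hx
    obtain ⟨h1, h2⟩ := hz.2.1 y hy
    exact ⟨lt_of_le_of_ne bot_le fun e => h1.ne' (toSub_injective (e.symm.trans hbot.symm)),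
      lt_of_le_of_ne (toSub_le_iff.2 h2.le) fun e => h2.ne (toSub_injective e)⟩
  · simp only [Finset.mem_sigma, Finset.mem_filter, Finset.mem_univ, true_and, mem_chains] at hz
    rw [Finset.coe_image]
    rintro _ ⟨a, ha, rfl⟩ _ ⟨b, hb, rfl⟩ hne
    exact (hz.2.2 ha hb fun e => hne (e ▸ rfl)).imp toSub_le_iff.2 toSub_le_iff.2
  · intro z hz
    have hz' := hz
    simp only [Finset.mem_sigma, Finset.mem_filter, Finset.mem_univ, true_and] at hz'
    refine Finset.mem_filter.2 ⟨Finset.mem_univ _, ?_, hz'.1.2⟩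
    have hfix : ∀ q : Submodule F[X] (PolyModule g), glMap g (toSub q) = toSub q := fun q =>
      Submodule.eq_of_le_of_finrank_eq (toSub_invariant q) (finrank_glMap g _)
    refine Subtype.ext (Prod.ext (hfix _) ?_)
    show Finset.image (glMap g) (Finset.image toSub z.2) = Finset.image toSub z.2
    rw [Finset.image_image]
    exact Finset.image_congr fun q _ => hfix q
  · rintro ⟨q, C⟩ _ ⟨r, D⟩ _ e
    have e1 : toSub q = toSub r := congrArg (fun o : ChainPair n F => o.1.1) e
    have e2 : C.image toSub = D.image toSub := congrArg (fun o : ChainPair n F => o.1.2) e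
    obtain rfl := toSub_injective e1
    obtain rfl := Finset.image_injective toSub_injective e2
    rfl
  · intro ω hω
    simp only [Finset.mem_filter, Finset.mem_univ, true_and] at hω
    obtain ⟨hW, hC⟩ := hinv ω hω.1
    refine ⟨⟨ofSub g ω.1.1 hW, ω.1.2.attach.image fun x => ofSub g x.1 (hC x.1 x.2)⟩, ?_, ?_⟩
    · simp only [Finset.mem_sigma, Finset.mem_filter, Finset.mem_univ, true_and, mem_chains]
      refine ⟨⟨fun e => ω.2.1 ?_, (toSub_ofSub g ω.1.1 hW).symm ▸ hω.2⟩, fun x hx => ?_, ?_⟩
      · rw [← toSub_ofSub g ω.1.1 hW, e, hbot]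
      · obtain ⟨y, -, rfl⟩ := Finset.mem_image.1 hx
        obtain ⟨h1, h2⟩ := ω.2.2.1 y.1 y.2
        refine ⟨bot_lt_iff_ne_bot.2 fun e => h1.ne' ?_, lt_of_le_of_ne ?_ fun e => h2.ne ?_⟩
        · rw [← toSub_ofSub g y.1 (hC y.1 y.2), e, hbot]
        · rw [← toSub_le_iff, toSub_ofSub, toSub_ofSub]; exact h2.le
        · rw [← toSub_ofSub g y.1 (hC y.1 y.2), e, toSub_ofSub]
      · rw [Finset.coe_image]
        rintro _ ⟨a, -, rfl⟩ _ ⟨b, -, rfl⟩ hne
        show _ ≤ _ ∨ _ ≤ _
        rw [← toSub_le_iff, ← toSub_le_iff, toSub_ofSub, toSub_ofSub]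
        exact ω.2.2.2.total a.2 b.2
    · refine Subtype.ext (Prod.ext (toSub_ofSub g ω.1.1 hW) ?_)
      show Finset.image toSub (Finset.image _ ω.1.2.attach) = ω.1.2
      rw [Finset.image_image]
      conv_rhs => rw [← Finset.attach_image_val (s := ω.1.2)]
      exact Finset.image_congr fun x _ => toSub_ofSub _ _ _
  · intro z hz
    simp only [pairVal]
    rw [Finset.card_image_of_injective _ toSub_injective, Int.cast_pow, Int.cast_neg, Int.cast_one]
    congr 1
    exact (subVal_toSub ι g z.1).symm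

open scoped Classical in
theorem chainLift_eq_sum_submodules (ι : Lˣ →* ℂˣ) (g : GL (Fin n) F) [Fintype (Submodule F[X] (PolyModule g))] :
    chainLift ι g = ∑ q ∈ Finset.univ.filter (fun q : Submodule F[X] (PolyModule g) => q ≠ ⊥),
      (chainSum q : ℂ) * modVal ι q := by
  have h := chainPart_eq_sum_submodules ι g (fun _ => True)
  simp only [and_true] at h
  exact h

end Cfsg.Agent.H42.Cuspidal
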