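/-
The values of the alternating chain sum of lifts.
-/
import Cfsg.Agent.H42.Cuspidal.Value

set_option autoImplicit false
set_option maxHeartbeats 1000000

open Polynomial UniqueFactorizationMonoid Cfsg.Agent.H70 Cfsg.Agent.H42.StValues

namespace Cfsg.Agent.H42.Cuspidal

section Module

variable {F : Type*} [Field F] {M : Type*} [AddCommGroup M] [Module F[X] M] [Module F M]
  [IsScalarTower F F[X] M] [Module.Finite F M]

/-- A module killed by a squarefree polynomial is semisimple. -/
theorem isSemisimple_kerBy {s : F[X]} (hs : Squarefree s) : IsSemisimpleModule F[X] ↥(kerBy (M := M) s) := by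
  haveI : Module.Finite F ↥(kerBy (M := M) s) :=
    Module.Finite.of_injective ((kerBy (M := M) s).subtype.restrictScalars F) Subtype.val_injective
  set T : Module.End F ↥(kerBy (M := M) s) := Algebra.lsmul F F _ (X : F[X]) with hT
  have h0 : aeval T s = 0 := by
    rw [hT, aeval_algHom_apply, aeval_X_left_apply]
    exact LinearMap.ext fun v => Subtype.ext (mem_kerBy.1 v.2)
  have hss : IsSemisimpleModule F[X] (Module.AEval' T) :=
    Module.End.isSemisimple_of_squarefree_aeval_eq_zero hs h0
  exact IsSemisimpleModule.congr (LinearEquiv.ofAEval T (LinearEquiv.refl F _) fun m => rfl).symm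

theorem charpoly_lsmul_span {f : F[X]} (hfm : f.Monic) (hf : Irreducible f) {v : M} (hv0 : v ≠ 0) (hv : f • v = 0)
    [Module.Finite F ↥(F[X] ∙ v)] :
    (Algebra.lsmul F F ↥(F[X] ∙ v) (X : F[X]) : ↥(F[X] ∙ v) →ₗ[F] ↥(F[X] ∙ v)).charpoly = f := by
  classical
  haveI : Module.Finite F (H66.CycMod f) := H66.finiteDimensional_cycMod hfm
  have h := H66.charpoly_lsmul_X hfm
  rw [LinearMap.charpoly_toMatrix] at h
  rw [charpoly_eq_of_intertwine (A := H66.CycMod f) (B := ↥(F[X] ∙ v))
    ((spanEquiv hf hv0 hv).restrictScalars F) (Algebra.lsmul F F (H66.CycMod f) (X : F[X]))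
    (Algebra.lsmul F F ↥(F[X] ∙ v) (X : F[X]))
    (fun w => (spanEquiv hf hv0 hv).map_smul (X : F[X]) w)]
  exact h

variable {L : Type*} [Field L] [Algebra F L]

theorem modVal_bot (ι : Lˣ →* ℂˣ) : modVal ι (⊥ : Submodule F[X] M) = 0 := by
  unfold modVal
  haveI : Module.Finite F (⊥ : Submodule F[X] M) :=
    Module.Finite.of_injective ((⊥ : Submodule F[X] M).subtype.restrictScalars F) Subtype.val_injective
  set T : Module.End F (⊥ : Submodule F[X] M) := Algebra.lsmul F F _ (X : F[X])
  have h : T.charpoly = 1 := by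
    refine Polynomial.Monic.natDegree_eq_zero (LinearMap.charpoly_monic T) |>.1 ?_
    rw [LinearMap.charpoly_natDegree, Module.finrank_zero_of_subsingleton]
  rw [h, rootSum, Polynomial.map_one, roots_one]; simp

theorem modVal_sup_span (ι : Lˣ →* ℂˣ) {f : F[X]} (hfm : f.Monic) (hf : Irreducible f) {v : M} (hv0 : v ≠ 0)
    (hv : f • v = 0) {W : Submodule F[X] M} (hW : W ⊓ (F[X] ∙ v) = ⊥) :
    modVal ι (W ⊔ (F[X] ∙ v)) = modVal ι W + rootSum ι f := by
  have hfin : ∀ q : Submodule F[X] M, Module.Finite F q := fun q =>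
    Module.Finite.of_injective (q.subtype.restrictScalars F) Subtype.val_injective
  haveI := hfin W
  haveI := hfin (F[X] ∙ v)
  haveI := hfin (W ⊔ (F[X] ∙ v))
  unfold modVal
  rw [charpoly_eq_of_intertwine (A := W × ↥(F[X] ∙ v)) (B := ↥(W ⊔ (F[X] ∙ v)))
    ((supEquiv hW).restrictScalars F)
    (LinearMap.prodMap (Algebra.lsmul F F W (X : F[X]) : W →ₗ[F] W)
      (Algebra.lsmul F F ↥(F[X] ∙ v) (X : F[X]) : ↥(F[X] ∙ v) →ₗ[F] ↥(F[X] ∙ v)))
    (Algebra.lsmul F F ↥(W ⊔ (F[X] ∙ v)) (X : F[X]))
    (fun w => (supEquiv hW).map_smul (X : F[X]) w),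
    LinearMap.charpoly_prodMap, rootSum_mul ι (LinearMap.charpoly_monic _).ne_zero (LinearMap.charpoly_monic _).ne_zero,
    charpoly_lsmul_span hfm hf hv0 hv]

theorem modVal_map (ι : Lˣ →* ℂˣ) (K : Submodule F[X] M) [Module.Finite F ↥K] (W : Submodule F[X] ↥K) :
    modVal ι (W.map K.subtype) = modVal ι W := by
  haveI : Module.Finite F W := Module.Finite.of_injective (W.subtype.restrictScalars F) Subtype.val_injective
  haveI : Module.Finite F (W.map K.subtype) :=
    Module.Finite.of_injective ((W.map K.subtype).subtype.restrictScalars F) Subtype.val_injective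
  unfold modVal
  rw [charpoly_eq_of_intertwine (A := W) (B := ↥(W.map K.subtype))
    ((Submodule.equivMapOfInjective K.subtype K.injective_subtype W).restrictScalars F)
    (Algebra.lsmul F F W (X : F[X]) : W →ₗ[F] W) (Algebra.lsmul F F ↥(W.map K.subtype) (X : F[X]))
    (fun w => (Submodule.equivMapOfInjective K.subtype K.injective_subtype W).map_smul (X : F[X]) w)]

theorem mult_top_kerBy (f : F[X]) (K : Submodule F[X] M) (hK : kerBy f ≤ K) :
    mult f (⊤ : Submodule F[X] ↥K) = mult f (⊤ : Submodule F[X] M) := by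
  unfold mult fdim
  congr 1
  refine LinearEquiv.finrank_eq
    { toFun := fun v => ⟨(v.1 : M), trivial, mem_kerBy.2 (congrArg Subtype.val (mem_kerBy.1 v.2.2))⟩
      map_add' := fun _ _ => rfl
      map_smul' := fun _ _ => rfl
      invFun := fun v => ⟨⟨v.1, hK v.2.2⟩, trivial, mem_kerBy.2 (Subtype.ext (mem_kerBy.1 v.2.2))⟩
      left_inv := fun _ => rfl
      right_inv := fun _ => rfl }

open scoped Classical in
/-- The chain sum is supported on the socle, where it is the negated Moebius function. -/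
theorem chainSum_eq_mu_socle [Fintype F] [Fintype (Submodule F[X] M)] (S : Finset F[X])
    (hS : ∀ g ∈ S, g.Monic ∧ Irreducible g) (hsq : Squarefree (∏ g ∈ S, g))
    (T : Multiset F[X]) (hT : ∀ g ∈ T, g ∈ S) (hkill : ∀ w : M, T.prod • w = 0)
    {u : Submodule F[X] M} (hu : u ≠ ⊥) :
    chainSum u = -(if u ≤ kerBy (∏ g ∈ S, g) then mu S (u.comap (kerBy (M := M) (∏ g ∈ S, g)).subtype) else 0) := by
  haveI : Finite M := Module.finite_of_finite F
  set s := ∏ g ∈ S, g with hs
  set K : Submodule F[X] M := kerBy s with hK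
  haveI : IsSemisimpleModule F[X] ↥K := isSemisimple_kerBy hsq
  haveI : Module.Finite F ↥K := Module.Finite.of_injective (K.subtype.restrictScalars F) Subtype.val_injective
  letI : Fintype (Submodule F[X] ↥K) := Fintype.ofFinite _
  have hkillK : ∀ w : ↥K, S.val.prod • w = 0 := fun w => Subtype.ext (by
    rw [Finset.prod_val, Submodule.coe_smul]; exact mem_kerBy.1 w.2)
  have hkK : ∀ g ∈ S, kerBy (M := M) g ≤ K := fun g hg w hw => by
    rw [hK, mem_kerBy, hs, ← Finset.prod_erase_mul _ _ hg, mul_smul, mem_kerBy.1 hw, smul_zero]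
  let gM : Submodule F[X] M → ℤ := fun q => if q ≤ K then mu S (q.comap K.subtype) else 0
  have hpre : ∀ q ≤ K, (q.comap K.subtype).map K.subtype = q := fun q hq => by
    rw [Submodule.map_comap_eq, Submodule.range_subtype, inf_eq_right.2 hq]
  have hmc : ∀ W : Submodule F[X] ↥K, (W.map K.subtype).comap K.subtype = W := fun W =>
    Submodule.comap_map_eq_of_injective K.injective_subtype W
  have h0 : gM ⊥ = 1 := by
    simp only [gM, if_pos bot_le]
    rw [show (⊥ : Submodule F[X] M).comap K.subtype = ⊥ from (Submodule.comap_bot _).trans K.ker_subtype, mu_bot]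
  have hsum : ∀ u : Submodule F[X] M, u ≠ ⊥ → ∀ [DecidablePred fun x => x ≤ u],
      ∑ x ∈ Finset.univ.filter (fun x => x ≤ u), gM x = 0 := by
    intro u hu _
    obtain ⟨w, hw, hw0⟩ := Submodule.exists_mem_ne_zero_of_ne_bot hu
    obtain ⟨g, hg, y, hyu, hy0, hy⟩ := exists_kerBy_ne T u w hw hw0 (hkill w)
    have hne : u.comap K.subtype ≠ ⊥ := by
      intro e
      have : (⟨y, hkK g (hT g hg) (mem_kerBy.2 hy)⟩ : ↥K) ∈ u.comap K.subtype := hyu
      rw [e, Submodule.mem_bot] at this
      exact hy0 (congrArg Subtype.val this)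
    rw [← sum_mu_eq_zero S hS S.val (fun g hg => hg) hkillK (u.comap K.subtype) hne]
    simp only [gM]
    rw [← Finset.sum_filter, Finset.filter_filter]
    refine Finset.sum_bij (fun q _ => q.comap K.subtype) (fun q hq => ?_) (fun a ha b hb e => ?_) (fun W hW => ?_)
      (fun q _ => rfl)
    · simp only [Finset.mem_filter, Finset.mem_univ, true_and] at hq ⊢
      exact Submodule.comap_mono hq.1
    · simp only [Finset.mem_filter, Finset.mem_univ, true_and] at ha hb
      rw [← hpre a ha.2, ← hpre b hb.2, e]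
    · simp only [Finset.mem_filter, Finset.mem_univ, true_and] at hW
      refine ⟨W.map K.subtype, ?_, hmc W⟩
      simp only [Finset.mem_filter, Finset.mem_univ, true_and]
      exact ⟨(Submodule.map_mono hW).trans (Submodule.map_comap_le _ _), Submodule.map_subtype_le K W⟩
  exact chainSum_eq_neg gM h0 hsum u hu

open scoped Classical in
/-- The weighted chain sum only sees the socle. -/
theorem weighted_chainSum [Fintype F] [Fintype (Submodule F[X] M)] (ι : Lˣ →* ℂˣ) (S : Finset F[X])
    (hS : ∀ g ∈ S, g.Monic ∧ Irreducible g) (hsq : Squarefree (∏ g ∈ S, g))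
    (T : Multiset F[X]) (hT : ∀ g ∈ T, g ∈ S) (hkill : ∀ w : M, T.prod • w = 0)
    {f : F[X]} (hfS : f ∈ S) {v : M} (hv0 : v ≠ 0) (hv : f • v = 0) :
    ∑ q ∈ Finset.univ.filter (fun q : Submodule F[X] M => q ≠ ⊥), (chainSum q : ℂ) * modVal ι q =
      if ∀ g ∈ S, g ≠ f → kerBy (M := M) g = ⊥ then
        rootSum ι f * ((∏ i ∈ Finset.Ico 1 (mult f (⊤ : Submodule F[X] M)),
          (1 - ((Fintype.card F : ℤ) ^ f.natDegree) ^ i) : ℤ) : ℂ)
      else 0 := by
  haveI : Finite M := Module.finite_of_finite F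
  set s := ∏ g ∈ S, g with hs
  set K : Submodule F[X] M := kerBy s with hK
  haveI : IsSemisimpleModule F[X] ↥K := isSemisimple_kerBy hsq
  haveI : Module.Finite F ↥K := Module.Finite.of_injective (K.subtype.restrictScalars F) Subtype.val_injective
  letI : Fintype (Submodule F[X] ↥K) := Fintype.ofFinite _
  have hkillK : ∀ w : ↥K, S.val.prod • w = 0 := fun w => Subtype.ext (by
    rw [Finset.prod_val, Submodule.coe_smul]; exact mem_kerBy.1 w.2)
  have hkK : ∀ g ∈ S, kerBy (M := M) g ≤ K := fun g hg w hw => by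
    rw [hK, mem_kerBy, hs, ← Finset.prod_erase_mul _ _ hg, mul_smul, mem_kerBy.1 hw, smul_zero]
  let gM : Submodule F[X] M → ℤ := fun q => if q ≤ K then mu S (q.comap K.subtype) else 0
  have hpre : ∀ q ≤ K, (q.comap K.subtype).map K.subtype = q := fun q hq => by
    rw [Submodule.map_comap_eq, Submodule.range_subtype, inf_eq_right.2 hq]
  have hmc : ∀ W : Submodule F[X] ↥K, (W.map K.subtype).comap K.subtype = W := fun W =>
    Submodule.comap_map_eq_of_injective K.injective_subtype W
  have hneg : ∀ u : Submodule F[X] M, u ≠ ⊥ → chainSum u = -gM u := fun u hu =>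
    chainSum_eq_mu_socle S hS hsq T hT hkill hu
  rw [Finset.sum_congr rfl fun q hq => by rw [hneg q (Finset.mem_filter.1 hq).2]]
  rw [Finset.sum_subset (Finset.subset_univ _) (fun q _ hq => by
    have hq' : q = ⊥ := by simpa using hq
    rw [hq', modVal_bot, mul_zero])]
  have hres : ∑ q : Submodule F[X] M, ((-gM q : ℤ) : ℂ) * modVal ι q =
      -∑ W ∈ Finset.univ.filter (fun W : Submodule F[X] ↥K => W ≤ ⊤), modVal ι W * (mu S W : ℂ) := by
    rw [Finset.filter_true_of_mem (fun W _ => le_top), ← Finset.sum_neg_distrib,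
      ← Finset.sum_subset (Finset.subset_univ (Finset.univ.filter fun q : Submodule F[X] M => q ≤ K))
        (fun q _ hq => by
          have : ¬ q ≤ K := by simpa using hq
          simp [gM, if_neg this])]
    refine Finset.sum_bij (fun q _ => q.comap K.subtype) (fun q hq => Finset.mem_univ _) (fun a ha b hb e => ?_)
      (fun W _ => ⟨W.map K.subtype, by simp [Submodule.map_subtype_le], hmc W⟩) (fun q hq => ?_)
    · simp only [Finset.mem_filter, Finset.mem_univ, true_and] at ha hb
      rw [← hpre a ha, ← hpre b hb, e]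
    · simp only [Finset.mem_filter, Finset.mem_univ, true_and] at hq
      simp only [gM, if_pos hq]
      rw [← modVal_map ι K (q.comap K.subtype), hpre q hq]
      push_cast; ring
  rw [hres]
  obtain ⟨hfm, hf⟩ := hS f hfS
  have hvK : v ∈ K := hkK f hfS (mem_kerBy.2 hv)
  have hv' : f • (⟨v, hvK⟩ : ↥K) = 0 := Subtype.ext hv
  rw [sum_additive_eq S hS S.val (fun g hg => hg) hkillK hfS
    (fun e => hv0 (congrArg Subtype.val e)) hv' (U := ⊤) trivial
    (fun W => modVal ι W) (rootSum ι f) (fun W _ hW => modVal_sup_span ι hfm hf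
      (fun e => hv0 (congrArg Subtype.val e)) hv' hW)]
  have hiff : (⊤ : Submodule F[X] ↥K) ≤ kerBy f ↔ ∀ g ∈ S, g ≠ f → kerBy (M := M) g = ⊥ := by
    constructor
    · intro h g hg hgf
      have hle : kerBy (M := M) g ≤ kerBy f := fun w hw => mem_kerBy.2
        (congrArg Subtype.val (mem_kerBy.1 (h (Submodule.mem_top (x := (⟨w, hkK g hg hw⟩ : ↥K))))))
      have hnd : ¬ g ∣ f := fun hd => hgf (eq_of_monic_of_associated (hS g hg).1 hfm ((hS g hg).2.associated_of_dvd hf hd))
      rw [eq_bot_iff, ← kerBy_inf_of_not_dvd (M := M) (hS g hg).2 hnd]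
      exact le_inf le_rfl hle
    · intro h w _
      by_contra hw
      rw [mem_kerBy] at hw
      obtain ⟨g, hg, y, -, hy0, hy⟩ := exists_kerBy_ne (S.erase f).val (⊤ : Submodule F[X] M) ((f • w : ↥K) : M)
        trivial (fun e => hw (Subtype.ext e)) (by
          rw [Finset.prod_val, Submodule.coe_smul, ← mul_smul, show (S.erase f).prod id * f = s from Finset.prod_erase_mul S (fun x => x) hfS]
          exact mem_kerBy.1 w.2)
      rw [Finset.mem_val, Finset.mem_erase] at hg
      have := h g hg.2 hg.1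
      exact hy0 ((Submodule.eq_bot_iff _).1 this y (mem_kerBy.2 hy))
  by_cases hc : (⊤ : Submodule F[X] ↥K) ≤ kerBy f
  · rw [if_pos hc, if_pos (hiff.1 hc), neg_neg, mult_top_kerBy f K (hkK f hfS)]
  · rw [if_neg hc, if_neg (fun h => hc (hiff.2 h)), neg_zero]

end Module

variable {F : Type*} [Field F] [Fintype F] {L : Type*} [Field L] [Fintype L] [Algebra F L] {n : ℕ}

theorem kerBy_eq_bot_iff (g : GL (Fin n) F) (f : F[X]) :
    kerBy (M := PolyModule g) f = ⊥ ↔ LinearMap.ker (aeval (endo g) f) = ⊥ := by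
  rw [Submodule.eq_bot_iff, Submodule.eq_bot_iff]
  constructor
  · intro h v hv
    have : (Module.AEval'.of (endo g)) v ∈ kerBy (M := PolyModule g) f := by
      rw [mem_kerBy, ← Module.AEval.of_aeval_smul]
      exact (LinearEquiv.map_eq_zero_iff _).2 hv
    exact (LinearEquiv.map_eq_zero_iff _).1 (h _ this)
  · intro h w hw
    rw [mem_kerBy] at hw
    have h1 := congrArg (Module.AEval'.of (endo g)).symm hw
    rw [Module.AEval.of_symm_smul, map_zero] at h1
    exact (LinearEquiv.map_eq_zero_iff _).1 (h _ h1)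

theorem ker_ne_bot_of_dvd_charpoly (g : GL (Fin n) F) {f : F[X]} (hfm : f.Monic) (hf : Irreducible f)
    (hd : f ∣ (g : Matrix (Fin n) (Fin n) F).charpoly) : LinearMap.ker (aeval (endo g) f) ≠ ⊥ := by
  classical
  obtain ⟨I, _, P, e, hdec⟩ := Cfsg.Agent.H66.exists_isDecomp (endo g)
  have hd' : f ∣ ∏ i, P i ^ e i := by rw [← hdec.charpoly_eq, Matrix.charpoly_toLin']; exact hd
  obtain ⟨i, -, hi⟩ := hf.prime.exists_mem_finset_dvd hd'
  have hfi : P i = f := (eq_of_monic_of_associated hfm (hdec.monic i)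
    (hf.associated_of_dvd (hdec.irreducible i) (hf.prime.dvd_of_dvd_pow hi))).symm
  intro e0
  have := hdec.finrank_ker_pow hfm hf 1
  rw [pow_one, e0, finrank_bot] at this
  rcases Nat.mul_eq_zero.1 this.symm with h | h
  · exact hf.natDegree_pos.ne' h
  · have h1 := Finset.sum_eq_zero_iff.1 h i (Finset.mem_filter.2 ⟨Finset.mem_univ _, hfi⟩)
    have := hdec.pos i
    omega

theorem mult_top_eq (g : GL (Fin n) F) (f : F[X]) :
    mult f (⊤ : Submodule F[X] (PolyModule g)) =
      Module.finrank F (LinearMap.ker (aeval (endo g) f)) / f.natDegree := by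
  have hk : toSub ((⊤ : Submodule F[X] (PolyModule g)) ⊓ kerBy f) = LinearMap.ker (aeval (endo g) f) := by
    ext v
    rw [mem_toSub, top_inf_eq, mem_kerBy, LinearMap.mem_ker, ← Module.AEval.of_aeval_smul]
    exact LinearEquiv.map_eq_zero_iff _
  rw [mult, ← finrank_toSub, hk]

/-- The value at an element with a prime power characteristic polynomial. -/
theorem chainLift_primary (ι : Lˣ →* ℂˣ) (g : GL (Fin n) F) {f : F[X]} {m : ℕ} (hm : 0 < m) (hfm : f.Monic)
    (hf : Irreducible f) (hc : (g : Matrix (Fin n) (Fin n) F).charpoly = f ^ m) :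
    chainLift ι g = rootSum ι f * ((∏ i ∈ Finset.Ico 1 (Module.finrank F (LinearMap.ker (aeval (endo g) f)) / f.natDegree),
      (1 - ((Fintype.card F : ℤ) ^ f.natDegree) ^ i) : ℤ) : ℂ) := by
  classical
  haveI : Finite (PolyModule g) := Finite.of_equiv _ (Module.AEval'.of (endo g)).toEquiv
  haveI : Module.Finite F (PolyModule g) := Module.AEval.instFiniteOrig (endo g)
  letI : Fintype (Submodule F[X] (PolyModule g)) := Fintype.ofFinite _
  have hkill : ∀ w : PolyModule g, (Multiset.replicate m f).prod • w = 0 := by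
    intro w
    rw [Multiset.prod_replicate, ← hc, ← Matrix.charpoly_toLin' (g : Matrix (Fin n) (Fin n) F)]
    apply (Module.AEval'.of (endo g)).symm.injective
    rw [Module.AEval.of_symm_smul, LinearMap.aeval_self_charpoly, map_zero]
    rfl
  have hne : kerBy (M := PolyModule g) f ≠ ⊥ := fun e =>
    ker_ne_bot_of_dvd_charpoly g hfm hf (hc ▸ dvd_pow_self f hm.ne') ((kerBy_eq_bot_iff g f).1 e)
  obtain ⟨v, hv, hv0⟩ := Submodule.exists_mem_ne_zero_of_ne_bot hne
  rw [chainLift_eq_sum_submodules, weighted_chainSum ι {f} (by simp [hfm, hf]) (by simpa using hf.squarefree)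
    (Multiset.replicate m f) (fun g hg => by rw [Finset.mem_singleton]; exact Multiset.eq_of_mem_replicate hg) hkill
    (Finset.mem_singleton_self f) hv0 (mem_kerBy.1 hv), if_pos (by simp), mult_top_eq]

/-- The sum vanishes when two different irreducible factors occur. -/
theorem chainLift_eq_zero (ι : Lˣ →* ℂˣ) (g : GL (Fin n) F) {f f' : F[X]} (hfm : f.Monic) (hf : Irreducible f)
    (hfm' : f'.Monic) (hf' : Irreducible f') (hne : f ≠ f') (hd : f ∣ (g : Matrix (Fin n) (Fin n) F).charpoly)
    (hd' : f' ∣ (g : Matrix (Fin n) (Fin n) F).charpoly) : chainLift ι g = 0 := by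
  classical
  haveI : Finite (PolyModule g) := Finite.of_equiv _ (Module.AEval'.of (endo g)).toEquiv
  haveI : Module.Finite F (PolyModule g) := Module.AEval.instFiniteOrig (endo g)
  letI : Fintype (Submodule F[X] (PolyModule g)) := Fintype.ofFinite _
  have hc0 : (g : Matrix (Fin n) (Fin n) F).charpoly.Monic := Matrix.charpoly_monic _
  set N := normalizedFactors (g : Matrix (Fin n) (Fin n) F).charpoly with hN
  have hS : ∀ u ∈ N.toFinset, u.Monic ∧ Irreducible u := fun u hu => by
    rw [Multiset.mem_toFinset] at hu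
    have hi := irreducible_of_normalized_factor u hu
    exact ⟨normalize_normalized_factor u hu ▸ Polynomial.monic_normalize hi.ne_zero, hi⟩
  have hmem : ∀ {u : F[X]}, u.Monic → Irreducible u → u ∣ (g : Matrix (Fin n) (Fin n) F).charpoly →
      u ∈ N.toFinset := fun {u} hum hu hud => by
    obtain ⟨w, hw, hassoc⟩ := exists_mem_normalizedFactors_of_dvd hc0.ne_zero hu hud
    rw [Multiset.mem_toFinset, eq_of_monic_of_associated hum (hS w (Multiset.mem_toFinset.2 hw)).1 hassoc]
    exact hw
  have hkill : ∀ w : PolyModule g, N.prod • w = 0 := by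
    intro w
    rw [hN, prod_normalizedFactors_eq hc0.ne_zero, hc0.normalize_eq_self,
      ← Matrix.charpoly_toLin' (g : Matrix (Fin n) (Fin n) F)]
    apply (Module.AEval'.of (endo g)).symm.injective
    rw [Module.AEval.of_symm_smul, LinearMap.aeval_self_charpoly, map_zero]
    rfl
  have hsq : Squarefree (∏ u ∈ N.toFinset, u) := by
    rw [squarefree_iff_nodup_normalizedFactors (Finset.prod_ne_zero_iff.2 fun u hu => (hS u hu).2.ne_zero),
      show (∏ u ∈ N.toFinset, u) = N.toFinset.val.prod from (Finset.prod_val _).symm, normalizedFactors_prod_eq _ (fun u hu => (hS u hu).2)]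
    refine Multiset.Nodup.map_on (fun a ha b hb e => ?_) N.toFinset.nodup
    rwa [(hS a ha).1.normalize_eq_self, (hS b hb).1.normalize_eq_self] at e
  have hne0 : ∀ {u : F[X]}, u.Monic → Irreducible u → u ∣ (g : Matrix (Fin n) (Fin n) F).charpoly →
      kerBy (M := PolyModule g) u ≠ ⊥ := fun {u} hum hu hud e =>
    ker_ne_bot_of_dvd_charpoly g hum hu hud ((kerBy_eq_bot_iff g u).1 e)
  obtain ⟨v, hv, hv0⟩ := Submodule.exists_mem_ne_zero_of_ne_bot (hne0 hfm hf hd)
  rw [chainLift_eq_sum_submodules, weighted_chainSum ι N.toFinset hS hsq N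
    (fun u hu => Multiset.mem_toFinset.2 hu) hkill (hmem hfm hf hd) hv0 (mem_kerBy.1 hv), if_neg]
  intro h
  exact hne0 hfm' hf' hd' (h f' (hmem hfm' hf' hd') hne.symm)

end Cfsg.Agent.H42.Cuspidal
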