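/-
Cuspidality: the chain sum averages to zero over translations by maps into an invariant subspace.
-/
import Cfsg.Agent.H42.Cuspidal.Socle
import Cfsg.Agent.H42.Cuspidal.Identity

set_option autoImplicit false
set_option maxHeartbeats 1000000

open Polynomial Module

namespace Cfsg.Agent.H42.Cuspidal

variable {F : Type*} [Field F] {V : Type*} [AddCommGroup V] [Module F V] [FiniteDimensional F V]

/-- The characteristic polynomial does not change when a map from the quotient into an invariant
subspace is added. -/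
theorem charpoly_translate (T A : Module.End F V) (W : Submodule F V) (hT : ∀ v ∈ W, T v ∈ W)
    (hA : ∀ v, A v ∈ W) (hA0 : ∀ v ∈ W, A v = 0) : (T + A).charpoly = T.charpoly := by
  classical
  obtain ⟨Q, hQ⟩ := exists_isCompl W
  let bW := Module.finBasis F W
  let bQ := Module.finBasis F Q
  let b := (bW.prod bQ).map (Submodule.prodEquivOfIsCompl W Q hQ)
  have hbl : ∀ i, b (Sum.inl i) = (bW i : V) := fun i => by simp [b]
  have hzero : ∀ v : V, v ∈ W → ∀ i, b.repr v (Sum.inr i) = 0 := by
    intro v hv i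
    have h1 : (Submodule.prodEquivOfIsCompl W Q hQ).symm v = ((⟨v, hv⟩ : W), 0) :=
      Submodule.prodEquivOfIsCompl_symm_apply_left W Q hQ (⟨v, hv⟩ : W)
    simp [b, h1]
  rw [← LinearMap.charpoly_toMatrix (T + A) b, ← LinearMap.charpoly_toMatrix T b]
  set M := LinearMap.toMatrix b b T
  set M' := LinearMap.toMatrix b b (T + A)
  have e11 : M'.toBlocks₁₁ = M.toBlocks₁₁ := by
    ext i j
    simp [M, M', Matrix.toBlocks₁₁, LinearMap.toMatrix_apply, hbl, hA0 _ (bW j).2]
  have e22 : M'.toBlocks₂₂ = M.toBlocks₂₂ := by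
    ext i j
    simp [M, M', Matrix.toBlocks₂₂, LinearMap.toMatrix_apply, hzero _ (hA _) i]
  have e21 : M.toBlocks₂₁ = 0 := by
    ext i j
    simp [M, Matrix.toBlocks₂₁, LinearMap.toMatrix_apply, hbl, hzero _ (hT _ (bW j).2) i]
  have e21' : M'.toBlocks₂₁ = 0 := by
    ext i j
    simp [M', Matrix.toBlocks₂₁, LinearMap.toMatrix_apply, hbl, hA0 _ (bW j).2, hzero _ (hT _ (bW j).2) i]
  rw [← Matrix.fromBlocks_toBlocks M', ← Matrix.fromBlocks_toBlocks M, e11, e22, e21, e21',
    Matrix.charpoly_fromBlocks_zero₂₁, Matrix.charpoly_fromBlocks_zero₂₁]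

theorem aeval_mem (T : Module.End F V) (W : Submodule F V) (hT : ∀ v ∈ W, T v ∈ W) (φ : F[X]) :
    ∀ v ∈ W, aeval T φ v ∈ W := by
  induction φ using Polynomial.induction_on' with
  | add a b ha hb => intro v hv; rw [map_add, LinearMap.add_apply]; exact W.add_mem (ha v hv) (hb v hv)
  | monomial k c =>
    intro v hv
    rw [aeval_monomial, Module.End.mul_apply, Module.algebraMap_end_apply]
    refine W.smul_mem _ ?_
    clear c
    induction k with
    | zero => simpa using hv
    | succ k ih => rw [pow_succ', Module.End.mul_apply]; exact hT _ ih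

theorem aeval_restrict_apply (T : Module.End F V) (W : Submodule F V) (hT : ∀ v ∈ W, T v ∈ W) (φ : F[X]) :
    ∀ w : W, ((aeval (T.restrict hT) φ) w : V) = aeval T φ w := by
  induction φ using Polynomial.induction_on' with
  | add a b ha hb => intro w; simp [ha w, hb w]
  | monomial k c =>
    intro w
    rw [aeval_monomial, aeval_monomial, Module.End.mul_apply, Module.End.mul_apply, Module.algebraMap_end_apply,
      Module.algebraMap_end_apply, Submodule.coe_smul]
    congr 1
    clear c
    induction k generalizing w with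
    | zero => simp
    | succ k ih => rw [pow_succ, pow_succ, Module.End.mul_apply, Module.End.mul_apply, ih]; rfl

theorem aeval_mapQ_apply (T : Module.End F V) (W : Submodule F V) (hT : W ≤ W.comap T) (φ : F[X]) :
    ∀ v : V, aeval (W.mapQ W T hT) φ (Submodule.Quotient.mk v) = Submodule.Quotient.mk (aeval T φ v) := by
  induction φ using Polynomial.induction_on' with
  | add a b ha hb => intro v; simp [ha v, hb v]
  | monomial k c =>
    intro v
    rw [aeval_monomial, aeval_monomial, Module.End.mul_apply, Module.End.mul_apply, Module.algebraMap_end_apply,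
      Module.algebraMap_end_apply, Submodule.Quotient.mk_smul]
    congr 1
    clear c
    induction k generalizing v with
    | zero => simp
    | succ k ih => rw [pow_succ, pow_succ, Module.End.mul_apply, Module.End.mul_apply, Submodule.mapQ_apply, ih]

theorem aeval_apply_comm (T : Module.End F V) (φ : F[X]) (v : V) : aeval T φ (T v) = T (aeval T φ v) := by
  have h := congrArg (aeval T) (Polynomial.X_mul (p := φ))
  rw [map_mul, map_mul, aeval_X] at h
  exact (LinearMap.congr_fun h v).symm

theorem exists_ker_ne_zero (T : Module.End F V) (f : F[X]) :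
    ∀ (m : ℕ) (v : V), v ≠ 0 → aeval T (f ^ m) v = 0 → ∃ w, w ≠ 0 ∧ aeval T f w = 0 := by
  intro m
  induction m with
  | zero => intro v hv h; simp at h; exact absurd h hv
  | succ m ih =>
    intro v hv h
    rw [pow_succ', map_mul, Module.End.mul_apply] at h
    by_cases hw : aeval T (f ^ m) v = 0
    · exact ih v hv hw
    · exact ⟨_, hw, h⟩

variable [Fintype F]

open scoped Classical in
/-- The translated Green products sum to zero. -/
theorem sum_translate_eq_zero [Fintype V] (T : Module.End F V) (W : Submodule F V) (hT : ∀ v ∈ W, T v ∈ W)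
    (hW0 : W ≠ ⊥) (hW1 : W ≠ ⊤) {f : F[X]} (hfm : f.Monic) (hf : Irreducible f) (hsep : f.Separable) {m : ℕ}
    (hkill : aeval T (f ^ m) = 0) [Fintype (V →ₗ[F] W)] :
    ∑ A : {A : V →ₗ[F] W // ∀ v ∈ W, A v = 0},
      greenProd ((Fintype.card F : ℤ) ^ f.natDegree)
        (finrank F (LinearMap.ker (aeval (T + W.subtype ∘ₗ A.1) f)) / f.natDegree) = 0 := by
  haveI : Fact (Irreducible f) := ⟨hf⟩
  haveI hEfin : Module.Finite F (AdjoinRoot f) := hfm.finite_adjoinRoot
  haveI : Finite (AdjoinRoot f) := Module.finite_of_finite F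
  letI : Fintype (AdjoinRoot f) := Fintype.ofFinite _
  have hdE : finrank F (AdjoinRoot f) = f.natDegree := finrank_quotient_span_eq_natDegree
  have hQ : (Fintype.card (AdjoinRoot f) : ℤ) = (Fintype.card F : ℤ) ^ f.natDegree := by
    rw [Module.card_eq_pow_finrank (K := F), hdE]; push_cast; rfl
  -- the two sections
  set TW := T.restrict hT with hTW
  set R := LinearMap.range (aeval TW f) with hR
  have hRi : R ≤ R.comap TW := by
    rintro _ ⟨u, rfl⟩
    exact ⟨TW u, aeval_apply_comm TW f u⟩
  let P : Submodule F V := W.comap (aeval T f)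
  have hP : ∀ v ∈ P, T v ∈ P := by
    intro v hv
    show aeval T f (T v) ∈ W
    rw [aeval_apply_comm]
    exact hT _ hv
  let WP : Submodule F P := W.comap P.subtype
  have hWPi : WP ≤ WP.comap (T.restrict hP) := fun v hv => hT _ hv
  let ρC : Module.End F (W ⧸ R) := R.mapQ R TW hRi
  let ρK : Module.End F (P ⧸ WP) := WP.mapQ WP (T.restrict hP) hWPi
  have hC0 : aeval ρC f = 0 := by
    refine LinearMap.ext fun z => ?_
    obtain ⟨w, rfl⟩ := Submodule.Quotient.mk_surjective R z
    rw [aeval_mapQ_apply, LinearMap.zero_apply, Submodule.Quotient.mk_eq_zero]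
    exact ⟨w, rfl⟩
  have hK0 : aeval ρK f = 0 := by
    refine LinearMap.ext fun z => ?_
    obtain ⟨v, rfl⟩ := Submodule.Quotient.mk_surjective WP z
    rw [aeval_mapQ_apply, LinearMap.zero_apply, Submodule.Quotient.mk_eq_zero]
    show ((aeval (T.restrict hP) f) v : V) ∈ W
    rw [aeval_restrict_apply]
    exact v.2
  let φC : AdjoinRoot f →ₐ[F] Module.End F (W ⧸ R) := Ideal.Quotient.liftₐ (Ideal.span {f}) (aeval ρC) (fun a ha => by
    obtain ⟨b, rfl⟩ := Ideal.mem_span_singleton'.1 ha
    rw [map_mul, hC0, mul_zero])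
  let φK : AdjoinRoot f →ₐ[F] Module.End F (P ⧸ WP) := Ideal.Quotient.liftₐ (Ideal.span {f}) (aeval ρK) (fun a ha => by
    obtain ⟨b, rfl⟩ := Ideal.mem_span_singleton'.1 ha
    rw [map_mul, hK0, mul_zero])
  letI : Module (AdjoinRoot f) (W ⧸ R) := Module.compHom (W ⧸ R) φC.toRingHom
  letI : Module (AdjoinRoot f) (P ⧸ WP) := Module.compHom (P ⧸ WP) φK.toRingHom
  have hsmC : ∀ (φ : F[X]) (z : W ⧸ R), AdjoinRoot.mk f φ • z = aeval ρC φ z := fun φ z => rfl
  have hsmK : ∀ (φ : F[X]) (z : P ⧸ WP), AdjoinRoot.mk f φ • z = aeval ρK φ z := fun φ z => rfl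
  haveI : IsScalarTower F (AdjoinRoot f) (W ⧸ R) := ⟨fun c e z => by
    show φC (c • e) z = c • φC e z
    rw [map_smul]; rfl⟩
  haveI : IsScalarTower F (AdjoinRoot f) (P ⧸ WP) := ⟨fun c e z => by
    show φK (c • e) z = c • φK e z
    rw [map_smul]; rfl⟩
  haveI : Fintype (W ⧸ R) := Fintype.ofFinite _
  haveI : Fintype (P ⧸ WP) := Fintype.ofFinite _
  haveI : Module.Finite (AdjoinRoot f) (P ⧸ WP) := Module.Finite.of_finite
  haveI : Module.Finite (AdjoinRoot f) (W ⧸ R) := Module.Finite.of_finite
  letI : Fintype ((P ⧸ WP) →ₗ[AdjoinRoot f] (W ⧸ R)) :=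
    @Fintype.ofFinite _ (Finite.of_injective _ DFunLike.coe_injective)
  -- both are non-zero
  have hW1' : ∃ w : W, w ≠ 0 ∧ aeval TW f w = 0 := by
    obtain ⟨w, hw, hw0⟩ := Submodule.exists_mem_ne_zero_of_ne_bot hW0
    refine exists_ker_ne_zero TW f m ⟨w, hw⟩ (fun e => hw0 (congrArg Subtype.val e)) (Subtype.ext ?_)
    rw [aeval_restrict_apply, hkill]; rfl
  have ha1 : 1 ≤ finrank (AdjoinRoot f) (W ⧸ R) := by
    refine Nat.one_le_iff_ne_zero.2 fun h0 => ?_
    haveI : Subsingleton (W ⧸ R) := Module.finrank_zero_iff.1 h0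
    have htop : R = ⊤ := Submodule.Quotient.subsingleton_iff.1 inferInstance
    have hinj := LinearMap.injective_iff_surjective.2 (LinearMap.range_eq_top.1 htop)
    obtain ⟨w, hw, hw0⟩ := hW1'
    exact hw (hinj (hw0.trans (map_zero _).symm))
  have hk1 : 1 ≤ finrank (AdjoinRoot f) (P ⧸ WP) := by
    obtain ⟨v, hv⟩ : ∃ v : V, v ∉ W := by
      by_contra hcon
      push Not at hcon
      exact hW1 (eq_top_iff.2 fun v _ => hcon v)
    have hmem : ∃ v : V, v ∉ W ∧ aeval T f v ∈ W := by
      have hm : ∀ j, aeval T (f ^ j) v ∈ W → ∃ u : V, u ∉ W ∧ aeval T f u ∈ W := by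
        intro j
        induction j with
        | zero => intro h; exact absurd (by simpa using h) hv
        | succ j ih =>
          intro h
          by_cases hj : aeval T (f ^ j) v ∈ W
          · exact ih hj
          · exact ⟨_, hj, by rwa [← Module.End.mul_apply, ← map_mul, ← pow_succ']⟩
      exact hm m (by rw [hkill]; exact W.zero_mem)
    obtain ⟨u, huW, huP⟩ := hmem
    refine Nat.one_le_iff_ne_zero.2 fun h0 => huW ?_
    haveI : Subsingleton (P ⧸ WP) := Module.finrank_zero_iff.1 h0
    have := (Submodule.Quotient.mk_eq_zero WP).1 (Subsingleton.elim (Submodule.Quotient.mk (⟨u, huP⟩ : P)) 0)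
    exact this
  -- sections of the projections
  obtain ⟨s, hs⟩ := R.mkQ.exists_rightInverse_of_surjective (LinearMap.range_eq_top.2 (Submodule.mkQ_surjective R))
  obtain ⟨Pc, hPc⟩ := exists_isCompl (P ⊔ W)
  have hW_le : W ≤ P := fun w hw => aeval_mem T W hT f w hw
  have hPW : P ⊔ W = P := sup_eq_left.2 hW_le
  rw [hPW] at hPc
  let πP : V →ₗ[F] (P ⧸ WP) := WP.mkQ ∘ₗ Submodule.projectionOnto P Pc hPc
  have hπ : ∀ v : P, πP v = Submodule.Quotient.mk v := fun v => by
    simp [πP]
  obtain ⟨r0, b0, hr⟩ : IsCoprime (derivative f) f := (Polynomial.separable_def f).1 hsep |>.symm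
  let Aψ : ((P ⧸ WP) →ₗ[AdjoinRoot f] (W ⧸ R)) → {A : V →ₗ[F] W // ∀ v ∈ W, A v = 0} := fun ψ =>
    ⟨s ∘ₗ ((AdjoinRoot.mk f r0 • ψ).restrictScalars F) ∘ₗ πP, fun v hv => by
      have h0 : πP v = 0 := by
        rw [hπ ⟨v, hW_le hv⟩, Submodule.Quotient.mk_eq_zero]; exact hv
      simp [h0]⟩
  have hqs : ∀ z, R.mkQ (s z) = z := fun z => LinearMap.congr_fun hs z
  -- the effect of a translation
  have hshift : ∀ (A0 : {A : V →ₗ[F] W // ∀ v ∈ W, A v = 0}) (B : V →ₗ[F] W) (ψ' : (P ⧸ WP) →ₗ[AdjoinRoot f] (W ⧸ R))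
      (_ : ∀ v ∈ W, B v = 0) (_ : ∀ v : P, R.mkQ (B v) = ψ' (Submodule.Quotient.mk v)) (φ : F[X]) (v : P),
      ∃ w : W, (w : V) = aeval (T + W.subtype ∘ₗ A0.1 + W.subtype ∘ₗ B) φ v - aeval (T + W.subtype ∘ₗ A0.1) φ v ∧
        R.mkQ w = AdjoinRoot.mk f (derivative φ) • ψ' (Submodule.Quotient.mk v) := by
    intro A0 B ψ' hB0 hB φ
    set T1 := T + W.subtype ∘ₗ A0.1 with hT1
    have hT1W : ∀ u ∈ W, T1 u = T u := fun u hu => by simp [hT1, A0.2 u hu]
    have hT1P : ∀ u ∈ P, T1 u ∈ P := fun u hu => P.add_mem (hP u hu) (hW_le (A0.1 u).2)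
    induction φ using Polynomial.induction_on' with
    | add a b ha hb =>
      intro v
      obtain ⟨w1, h1, k1⟩ := ha v
      obtain ⟨w2, h2, k2⟩ := hb v
      refine ⟨w1 + w2, ?_, by rw [map_add, k1, k2, map_add, map_add, add_smul]⟩
      push_cast
      rw [h1, h2, map_add, map_add, LinearMap.add_apply, LinearMap.add_apply]
      abel
    | monomial k c =>
      intro v
      suffices h : ∃ w : W, (w : V) = ((T1 + W.subtype ∘ₗ B) ^ k) v - (T1 ^ k) v ∧
          R.mkQ w = AdjoinRoot.mk f ((k : F[X]) * X ^ (k - 1)) • ψ' (Submodule.Quotient.mk v) by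
        obtain ⟨w, h1, h2⟩ := h
        refine ⟨c • w, ?_, ?_⟩
        · rw [aeval_monomial, aeval_monomial, Module.End.mul_apply, Module.End.mul_apply,
            Module.algebraMap_end_apply, Module.algebraMap_end_apply, ← smul_sub, Submodule.coe_smul, h1]
        · rw [map_smul, h2, ← smul_assoc, AdjoinRoot.smul_mk]
          congr 2
          rw [derivative_monomial, ← C_mul_X_pow_eq_monomial, Polynomial.smul_eq_C_mul, map_mul, map_natCast]
          ring
      clear c
      induction k with
      | zero => exact ⟨0, by simp, by simp⟩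
      | succ k ih =>
        obtain ⟨w, h1, h2⟩ := ih
        let u : P := ⟨(T1 ^ k) v, by
          have : ∀ j, (T1 ^ j) v ∈ P := fun j => by
            induction j with
            | zero => simpa using v.2
            | succ j ihj => rw [pow_succ', Module.End.mul_apply]; exact hT1P _ ihj
          exact this k⟩
        refine ⟨TW w + B u, ?_, ?_⟩
        · rw [pow_succ', pow_succ', Module.End.mul_apply, Module.End.mul_apply,
            show ((T1 + W.subtype ∘ₗ B) ^ k) v = (w : V) + (T1 ^ k) v from eq_add_of_sub_eq h1.symm, map_add]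
          simp only [LinearMap.add_apply, LinearMap.comp_apply, Submodule.subtype_apply, hB0 _ w.2,
            Submodule.coe_zero, add_zero, Submodule.coe_add]
          rw [hT1W _ w.2]
          show T (w : V) + (B ((T1 ^ k) (v : V)) : V) = _
          abel
        · rw [map_add, hB u]
          have hu : Submodule.Quotient.mk u = AdjoinRoot.mk f (X ^ k) • (Submodule.Quotient.mk v : P ⧸ WP) := by
            rw [hsmK, aeval_mapQ_apply, Submodule.Quotient.eq]
            show (T1 ^ k) (v : V) - ((aeval (T.restrict hP) (X ^ k)) v : V) ∈ W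
            rw [aeval_restrict_apply, map_pow, aeval_X]
            clear h1 h2
            induction k with
            | zero => simp
            | succ j ihj =>
              rw [pow_succ', pow_succ', Module.End.mul_apply, Module.End.mul_apply]
              have hd : ∀ a, T1 a = T a + (A0.1 a : V) := fun a => rfl
              rw [hd, add_sub_right_comm, ← map_sub]
              refine W.add_mem (hT _ ?_) (A0.1 _).2
              exact ihj
          have hw : R.mkQ (TW w) = AdjoinRoot.mk f (X : F[X]) • R.mkQ w := by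
            rw [hsmC, aeval_X]; rfl
          rw [hw, h2, hu, LinearMap.map_smul, ← mul_smul, ← add_smul, ← map_mul, ← map_add]
          congr 2
          rcases k with _ | j
          · simp
          · simp only [Nat.add_sub_cancel, Nat.cast_add, Nat.cast_one]; ring
  -- per base point
  have hbase : ∀ A0 : {A : V →ₗ[F] W // ∀ v ∈ W, A v = 0},
      ∑ ψ : (P ⧸ WP) →ₗ[AdjoinRoot f] (W ⧸ R),
        greenProd ((Fintype.card F : ℤ) ^ f.natDegree)
          (finrank F (LinearMap.ker (aeval (T + W.subtype ∘ₗ (A0.1 + (Aψ ψ).1)) f)) / f.natDegree) = 0 := by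
    intro A0
    set T1 := T + W.subtype ∘ₗ A0.1 with hT1
    have hTW1 : ∀ (B : V →ₗ[F] W), (∀ v ∈ W, B v = 0) → ∀ (φ : F[X]), ∀ w ∈ W,
        aeval (T + W.subtype ∘ₗ B) φ w = aeval T φ w := by
      intro B hB φ w hw
      induction φ using Polynomial.induction_on' with
      | add a b ha hb => simp [ha, hb]
      | monomial k c =>
        rw [aeval_monomial, aeval_monomial, Module.End.mul_apply, Module.End.mul_apply]
        congr 1
        clear c
        induction k with
        | zero => simp
        | succ k ih =>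
          rw [pow_succ', pow_succ', Module.End.mul_apply, Module.End.mul_apply, ih]
          have hmem := aeval_mem T W hT (X ^ k) w hw
          rw [map_pow, aeval_X] at hmem
          simp [hB _ hmem]
    have hcongr : ∀ (B : V →ₗ[F] W) (v : V) (φ : F[X]), aeval (T + W.subtype ∘ₗ B) φ v - aeval T φ v ∈ W := by
      intro B v φ
      induction φ using Polynomial.induction_on' with
      | add a b ha hb => rw [map_add, map_add, LinearMap.add_apply, LinearMap.add_apply, add_sub_add_comm]; exact W.add_mem ha hb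
      | monomial k c =>
        rw [aeval_monomial, aeval_monomial, Module.End.mul_apply, Module.End.mul_apply, ← map_sub,
          Module.algebraMap_end_apply]
        refine W.smul_mem _ ?_
        clear c
        induction k with
        | zero => simp
        | succ k ih =>
          rw [pow_succ', pow_succ', Module.End.mul_apply, Module.End.mul_apply, LinearMap.add_apply,
            add_sub_right_comm, ← map_sub]
          exact W.add_mem (hT _ ih) (B _).2
    have hPmem : ∀ (B : V →ₗ[F] W) (v : V), v ∈ P ↔ aeval (T + W.subtype ∘ₗ B) f v ∈ W := fun B v => by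
      show aeval T f v ∈ W ↔ _
      exact ⟨fun h => by simpa using W.add_mem h (hcongr B v f), fun h => by simpa using W.sub_mem h (hcongr B v f)⟩
    let δB : (B : V →ₗ[F] W) → (P →ₗ[F] (W ⧸ R)) := fun B =>
      R.mkQ ∘ₗ ((aeval (T + W.subtype ∘ₗ B) f).comp P.subtype).codRestrict W (fun v => (hPmem B v).1 v.2)
    have hδW : ∀ B : V →ₗ[F] W, (∀ v ∈ W, B v = 0) → WP ≤ LinearMap.ker (δB B) := by
      intro B hB v hv
      rw [LinearMap.mem_ker]
      show Submodule.Quotient.mk _ = 0
      rw [Submodule.Quotient.mk_eq_zero]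
      refine ⟨⟨v, hv⟩, Subtype.ext ?_⟩
      show ((aeval TW f) _ : V) = aeval (T + W.subtype ∘ₗ B) f v
      rw [aeval_restrict_apply, hTW1 B hB f v hv]
    let δ0F : (P ⧸ WP) →ₗ[F] (W ⧸ R) := WP.liftQ (δB A0.1) (hδW _ A0.2)
    have hδlin : ∀ (e : AdjoinRoot f) z, δ0F (e • z) = e • δ0F z := by
      intro e z
      induction e using AdjoinRoot.induction_on with
      | ih φ =>
        obtain ⟨v, rfl⟩ := Submodule.Quotient.mk_surjective WP z
        rw [hsmK, hsmC, aeval_mapQ_apply]
        show δB A0.1 (aeval (T.restrict hP) φ v) = aeval ρC φ (δB A0.1 v)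
        show R.mkQ _ = aeval ρC φ (Submodule.Quotient.mk _)
        rw [aeval_mapQ_apply, Submodule.mkQ_apply, Submodule.Quotient.eq]
        set v1 : V := ((aeval (T.restrict hP) φ) v : V) with hv1
        have hv1T : v1 = aeval T φ v := aeval_restrict_apply T P hP φ v
        refine ⟨⟨v1 - aeval T1 φ v, by rw [hv1T, ← neg_sub]; exact W.neg_mem (hcongr A0.1 v φ)⟩, Subtype.ext ?_⟩
        show ((aeval TW f) _ : V) = aeval T1 f v1 - ((aeval TW φ) _ : V)
        rw [aeval_restrict_apply, aeval_restrict_apply]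
        show aeval T f (v1 - aeval T1 φ (v : V)) = aeval T1 f v1 - aeval T φ (aeval T1 f (v : V))
        have e1 : aeval T1 f (v1 - aeval T1 φ (v : V)) = aeval T f (v1 - aeval T1 φ (v : V)) :=
          hTW1 A0.1 A0.2 f _ (by rw [hv1T, ← neg_sub]; exact W.neg_mem (hcongr A0.1 v φ))
        have e2 : aeval T1 φ (aeval T1 f (v : V)) = aeval T φ (aeval T1 f (v : V)) :=
          hTW1 A0.1 A0.2 φ _ ((hPmem A0.1 v).1 v.2)
        rw [← e1, ← e2, map_sub]
        congr 1
        rw [← Module.End.mul_apply, ← Module.End.mul_apply, ← map_mul, ← map_mul, mul_comm]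
    let δ0 : (P ⧸ WP) →ₗ[AdjoinRoot f] (W ⧸ R) :=
      { toFun := δ0F, map_add' := δ0F.map_add, map_smul' := hδlin }
    have hfib : ∀ ψ : (P ⧸ WP) →ₗ[AdjoinRoot f] (W ⧸ R),
        finrank F (LinearMap.ker (aeval (T + W.subtype ∘ₗ (A0.1 + (Aψ ψ).1)) f)) / f.natDegree =
          finrank (AdjoinRoot f) (W ⧸ R) + finrank (AdjoinRoot f) (LinearMap.ker (δ0 + ψ)) := by
      intro ψ
      set B1 := A0.1 + (Aψ ψ).1 with hB1
      have hB10 : ∀ v ∈ W, B1 v = 0 := fun v hv => by
        rw [hB1, LinearMap.add_apply, A0.2 v hv, (Aψ ψ).2 v hv, add_zero]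
      have hδ : ∀ v : P, δB B1 v = (δ0 + ψ) (Submodule.Quotient.mk v) := by
        intro v
        obtain ⟨w, h1, h2⟩ := hshift A0 (Aψ ψ).1 (AdjoinRoot.mk f r0 • ψ) (Aψ ψ).2 (fun u => by
          show R.mkQ (s (((AdjoinRoot.mk f r0 • ψ).restrictScalars F) (πP u))) = _
          rw [hqs, hπ]; rfl) f v
        show R.mkQ _ = δB A0.1 v + ψ (Submodule.Quotient.mk v)
        have hone : ψ (Submodule.Quotient.mk v) = R.mkQ w := by
          rw [h2, LinearMap.smul_apply, ← mul_smul, ← map_mul]
          have : AdjoinRoot.mk f (derivative f * r0) = 1 := by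
            rw [← map_one (AdjoinRoot.mk f), AdjoinRoot.mk_eq_mk]
            exact ⟨-b0, by linear_combination hr⟩
          rw [this, one_smul]
        rw [hone]
        show R.mkQ _ = R.mkQ _ + R.mkQ w
        rw [← map_add]
        congr 1
        apply Subtype.ext
        show aeval (T + W.subtype ∘ₗ B1) f (v : V) = aeval (T + W.subtype ∘ₗ A0.1) f (v : V) + (w : V)
        have e : T + W.subtype ∘ₗ B1 = T + W.subtype ∘ₗ A0.1 + W.subtype ∘ₗ (Aψ ψ).1 := by
          rw [hB1, LinearMap.comp_add, ← add_assoc]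
        rw [h1, e]
        abel
      set K1 := LinearMap.ker (aeval (T + W.subtype ∘ₗ B1) f) with hK1
      have hK1P : K1 ≤ P := fun v hv => (hPmem B1 v).2 (by rw [LinearMap.mem_ker.1 hv]; exact W.zero_mem)
      let Φ : K1 →ₗ[F] LinearMap.ker ((δ0 + ψ).restrictScalars F) :=
        (WP.mkQ ∘ₗ Submodule.inclusion hK1P).codRestrict _ (fun v => by
          rw [LinearMap.mem_ker]
          show (δ0 + ψ) (Submodule.Quotient.mk _) = 0
          rw [← hδ]
          show Submodule.Quotient.mk _ = 0
          rw [Submodule.Quotient.mk_eq_zero]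
          refine ⟨0, Subtype.ext ?_⟩
          show ((aeval TW f) 0 : V) = aeval (T + W.subtype ∘ₗ B1) f (v : V)
          rw [map_zero, ZeroMemClass.coe_zero]
          exact (LinearMap.mem_ker.1 v.2).symm)
      have hΦs : Function.Surjective Φ := by
        rintro ⟨z, hz⟩
        obtain ⟨v, rfl⟩ := Submodule.Quotient.mk_surjective WP z
        rw [LinearMap.mem_ker, LinearMap.restrictScalars_apply, ← hδ] at hz
        obtain ⟨w, hw⟩ := (Submodule.Quotient.mk_eq_zero R).1 hz
        have hw' := congrArg Subtype.val hw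
        rw [aeval_restrict_apply, ← hTW1 B1 hB10 f _ w.2] at hw'
        refine ⟨⟨(v : V) - w, ?_⟩, Subtype.ext ?_⟩
        · rw [LinearMap.mem_ker, map_sub, hw']
          exact sub_self _
        · show Submodule.Quotient.mk _ = Submodule.Quotient.mk v
          rw [Submodule.Quotient.eq]
          show ((v : V) - w) - v ∈ W
          simp
      have hmemW : ∀ v : LinearMap.ker Φ, ((v : K1) : V) ∈ W := fun v => by
        have h : (Submodule.Quotient.mk (Submodule.inclusion hK1P v.1) : P ⧸ WP) = 0 :=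
          congrArg Subtype.val (LinearMap.mem_ker.1 v.2)
        exact (Submodule.Quotient.mk_eq_zero WP).1 h
      have hfwd : ∀ v : LinearMap.ker Φ, (⟨((v : K1) : V), hmemW v⟩ : W) ∈ LinearMap.ker (aeval TW f) := fun v => by
        refine LinearMap.mem_ker.2 (Subtype.ext ?_)
        rw [aeval_restrict_apply]
        show aeval T f ((v : K1) : V) = 0
        rw [← hTW1 B1 hB10 f _ (hmemW v)]
        exact LinearMap.mem_ker.1 (v : K1).2
      have hbwd : ∀ w : LinearMap.ker (aeval TW f), ((w : W) : V) ∈ K1 := fun w => by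
        rw [hK1, LinearMap.mem_ker, hTW1 B1 hB10 f _ (w : W).2, ← aeval_restrict_apply T W hT f w.1,
          LinearMap.mem_ker.1 w.2]
        rfl
      have hbwd' : ∀ w : LinearMap.ker (aeval TW f), (⟨((w : W) : V), hbwd w⟩ : K1) ∈ LinearMap.ker Φ := fun w => by
        refine LinearMap.mem_ker.2 (Subtype.ext ?_)
        show (Submodule.Quotient.mk (Submodule.inclusion hK1P ⟨((w : W) : V), hbwd w⟩) : P ⧸ WP) = 0
        rw [Submodule.Quotient.mk_eq_zero]
        exact (w : W).2
      have hker : finrank F (LinearMap.ker Φ) = finrank F (LinearMap.ker (aeval TW f)) :=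
        LinearEquiv.finrank_eq
          { toFun := fun v => ⟨⟨((v : K1) : V), hmemW v⟩, hfwd v⟩
            map_add' := fun _ _ => rfl
            map_smul' := fun _ _ => rfl
            invFun := fun w => ⟨⟨((w : W) : V), hbwd w⟩, hbwd' w⟩
            left_inv := fun _ => rfl
            right_inv := fun _ => rfl }
      have hcok : finrank F (LinearMap.ker (aeval TW f)) = finrank F (W ⧸ R) := by
        have h1 := (aeval TW f).finrank_range_add_finrank_ker
        have h2 := R.finrank_quotient_add_finrank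
        rw [← hR] at h1
        omega
      have h3 := Φ.finrank_range_add_finrank_ker
      rw [LinearMap.range_eq_top.2 hΦs, finrank_top, hker, hcok,
        show finrank F (LinearMap.ker ((δ0 + ψ).restrictScalars F)) = finrank F (LinearMap.ker (δ0 + ψ)) from rfl,
        ← Module.finrank_mul_finrank F (AdjoinRoot f) (W ⧸ R),
        ← Module.finrank_mul_finrank F (AdjoinRoot f) (LinearMap.ker (δ0 + ψ)), hdE, ← mul_add] at h3
      rw [← h3, Nat.mul_div_cancel_left _ hf.natDegree_pos, add_comm]
    rw [Finset.sum_congr rfl fun ψ _ => by rw [hfib ψ, ← hQ]]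
    refine Eq.trans (Fintype.sum_equiv (Equiv.addLeft δ0) _
      (fun ψ => greenProd (Fintype.card (AdjoinRoot f) : ℤ)
        (finrank (AdjoinRoot f) (W ⧸ R) + finrank (AdjoinRoot f) (LinearMap.ker ψ))) fun ψ => rfl) ?_
    exact sum_linearMap_eq_zero ha1 hk1
  -- averaging
  set H := fun A : {A : V →ₗ[F] W // ∀ v ∈ W, A v = 0} => greenProd ((Fintype.card F : ℤ) ^ f.natDegree)
        (finrank F (LinearMap.ker (aeval (T + W.subtype ∘ₗ A.1) f)) / f.natDegree) with hH
  let add : ((P ⧸ WP) →ₗ[AdjoinRoot f] (W ⧸ R)) → ({A : V →ₗ[F] W // ∀ v ∈ W, A v = 0} ≃ {A : V →ₗ[F] W // ∀ v ∈ W, A v = 0}) :=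
    fun ψ =>
      { toFun := fun A => ⟨A.1 + (Aψ ψ).1, fun v hv => by simp [A.2 v hv, (Aψ ψ).2 v hv]⟩
        invFun := fun A => ⟨A.1 - (Aψ ψ).1, fun v hv => by simp [A.2 v hv, (Aψ ψ).2 v hv]⟩
        left_inv := fun A => Subtype.ext (by simp)
        right_inv := fun A => Subtype.ext (by simp) }
  have hzero : ∑ ψ, ∑ A, H (add ψ A) = 0 := by
    rw [Finset.sum_comm]
    exact Finset.sum_eq_zero fun A _ => hbase A
  simp only [Equiv.sum_comp, Finset.sum_const, nsmul_eq_mul] at hzero
  rcases mul_eq_zero.1 hzero with h | h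
  · have hne : Nonempty ((P ⧸ WP) →ₗ[AdjoinRoot f] (W ⧸ R)) := ⟨0⟩
    rw [Finset.card_univ] at h
    exact absurd h (by exact_mod_cast Fintype.card_pos.ne')
  · exact h

end Cfsg.Agent.H42.Cuspidal
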