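/-
The signed chain lift: its degree and its sums over unipotent radicals.
-/
import Cfsg.Agent.H42.Cuspidal.Translate

set_option autoImplicit false
set_option maxHeartbeats 1000000

open Polynomial Module UniqueFactorizationMonoid Cfsg.Agent.H70 Cfsg.Agent.H42.StValues

namespace Cfsg.Agent.H42.Cuspidal

variable {F : Type*} [Field F] [Fintype F] {L : Type*} [Field L] [Fintype L] [Algebra F L] {n : ℕ}

/-- The signed chain lift. -/
noncomputable def chi (ι : Lˣ →* ℂˣ) (g : GL (Fin n) F) : ℂ := (-1) ^ (n - 1) * chainLift ι g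

theorem chi_mem_genChars (ι : Lˣ →* ℂˣ) (hι : Function.Injective ι) (p : ℕ) [Fact p.Prime] [CharP F p]
    {e0 : ℕ} (hcard : Fintype.card L = Fintype.card F ^ e0) (hn : ∀ d, 0 < d → d ≤ n → d ∣ e0) [DecidableEq F] :
    (chi ι : GL (Fin n) F → ℂ) ∈ H27.genChars (GL (Fin n) F) := by
  have h : (chi ι : GL (Fin n) F → ℂ) = ((-1 : ℤ) ^ (n - 1)) • (chainLift ι : GL (Fin n) F → ℂ) := by
    funext g
    rw [Pi.smul_apply, zsmul_eq_mul, chi]
    push_cast
    rfl
  rw [h]
  exact zsmul_mem (chainLift_mem_genChars ι hι p hcard hn) _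

/-- A characteristic polynomial is a prime power or has two different prime factors. -/
theorem primary_or_split (hn : 0 < n) (g : GL (Fin n) F) :
    (∃ (f : F[X]) (m : ℕ), 0 < m ∧ f.Monic ∧ Irreducible f ∧
      (g : Matrix (Fin n) (Fin n) F).charpoly = f ^ m) ∨
    (∃ f f' : F[X], f.Monic ∧ Irreducible f ∧ f'.Monic ∧ Irreducible f' ∧ f ≠ f' ∧
      f ∣ (g : Matrix (Fin n) (Fin n) F).charpoly ∧ f' ∣ (g : Matrix (Fin n) (Fin n) F).charpoly) := by
  classical
  set P := (g : Matrix (Fin n) (Fin n) F).charpoly with hP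
  have hc0 : P.Monic := Matrix.charpoly_monic _
  set N := normalizedFactors P with hN
  have hS : ∀ u ∈ N, u.Monic ∧ Irreducible u := fun u hu =>
    ⟨normalize_normalized_factor u hu ▸ Polynomial.monic_normalize (irreducible_of_normalized_factor u hu).ne_zero,
      irreducible_of_normalized_factor u hu⟩
  have hprod : N.prod = P := by rw [hN, prod_normalizedFactors_eq hc0.ne_zero, hc0.normalize_eq_self]
  have hdeg : P.natDegree = n := by rw [hP, Matrix.charpoly_natDegree_eq_dim, Fintype.card_fin]
  obtain ⟨f, hf⟩ : ∃ f, f ∈ N := by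
    refine Multiset.exists_mem_of_ne_zero fun e => ?_
    rw [e, Multiset.prod_zero] at hprod
    rw [← hprod, natDegree_one] at hdeg
    omega
  by_cases hall : ∀ u ∈ N, u = f
  · refine Or.inl ⟨f, Multiset.card N, Multiset.card_pos_iff_exists_mem.2 ⟨f, hf⟩, (hS f hf).1, (hS f hf).2, ?_⟩
    conv_lhs => rw [← hprod, Multiset.eq_replicate_card.2 hall, Multiset.prod_replicate]
  · push Not at hall
    obtain ⟨f', hf', hne⟩ := hall
    exact Or.inr ⟨f, f', (hS f hf).1, (hS f hf).2, (hS f' hf').1, (hS f' hf').2, hne.symm,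
      dvd_of_mem_normalizedFactors hf, dvd_of_mem_normalizedFactors hf'⟩

/-- The value at an element with a prime power characteristic polynomial. -/
theorem chainLift_eq_greenProd (ι : Lˣ →* ℂˣ) (g : GL (Fin n) F) {f : F[X]} {m : ℕ} (hm : 0 < m) (hfm : f.Monic)
    (hf : Irreducible f) (hc : (g : Matrix (Fin n) (Fin n) F).charpoly = f ^ m) :
    chainLift ι g = rootSum ι f *
      (greenProd ((Fintype.card F : ℤ) ^ f.natDegree) (finrank F (LinearMap.ker (aeval (endo g) f)) / f.natDegree) : ℂ) :=
  chainLift_primary ι g hm hfm hf hc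

omit [Fintype F] in
theorem rootSum_X_sub_one (ι : Lˣ →* ℂˣ) : rootSum ι (X - C (1 : F)) = 1 := by
  rw [rootSum, Polynomial.map_sub, map_X, map_C, map_one, roots_X_sub_C, Multiset.map_singleton,
    Multiset.sum_singleton, ← Units.val_one, iota0_unit, map_one, Units.val_one]

/-- The value at an element whose only eigenvalue is one. -/
theorem chi_unipotent (hn : 0 < n) (ι : Lˣ →* ℂˣ) (g : GL (Fin n) F)
    (hc : (g : Matrix (Fin n) (Fin n) F).charpoly = (X - C 1) ^ n) :
    chi ι g = (-1) ^ (n - 1) * (greenProd (Fintype.card F : ℤ) (finrank F (LinearMap.ker (endo g - 1))) : ℂ) := by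
  rw [chi, chainLift_eq_greenProd ι g hn (monic_X_sub_C 1) (irreducible_X_sub_C 1) hc, rootSum_X_sub_one, one_mul,
    natDegree_X_sub_C, pow_one, Nat.div_one, map_sub, aeval_X, aeval_C, map_one]

/-- The degree. -/
theorem chi_one (hn : 0 < n) (ι : Lˣ →* ℂˣ) :
    chi ι (1 : GL (Fin n) F) = ∏ i ∈ Finset.Ico 1 n, ((Fintype.card F : ℂ) ^ i - 1) := by
  rw [chi_unipotent hn ι 1 (by rw [Units.val_one, Matrix.charpoly_one]; simp)]
  have h : endo (1 : GL (Fin n) F) - 1 = 0 := by
    rw [sub_eq_zero]; simp [endo, Module.End.one_eq_id]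
  rw [h, LinearMap.ker_zero, finrank_top, Module.finrank_fin_fun, greenProd, Int.cast_prod]
  rw [show ((-1 : ℂ)) ^ (n - 1) = ∏ _i ∈ Finset.Ico 1 n, (-1 : ℂ) by rw [Finset.prod_const, Nat.card_Ico],
    ← Finset.prod_mul_distrib]
  refine Finset.prod_congr rfl fun i _ => ?_
  push_cast
  ring

section Radical

variable [DecidableEq F] {m : ℕ}

/-- A matrix supported on the upper right block. -/
def blockMat (m : ℕ) (c : Fin (n - m) → Fin m → F) : Matrix (Fin n) (Fin n) F := fun i j =>
  if h : i.val < m ∧ m ≤ j.val then c ⟨j.val - m, by have := j.isLt; omega⟩ ⟨i.val, h.1⟩ else 0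

omit [Fintype F] [DecidableEq F] in
theorem blockMat_upper (c : Fin (n - m) → Fin m → F) : (1 + blockMat m c : Matrix (Fin n) (Fin n) F).IsUpperTriangular := by
  intro i j hij
  have hij' : j.val < i.val := hij
  rw [Matrix.add_apply, Matrix.one_apply_ne (by omega), blockMat, dif_neg (by omega), add_zero]

omit [Fintype F] [DecidableEq F] in
theorem blockMat_diag (c : Fin (n - m) → Fin m → F) (i : Fin n) : (1 + blockMat m c : Matrix (Fin n) (Fin n) F) i i = 1 := by
  rw [Matrix.add_apply, Matrix.one_apply_eq, blockMat, dif_neg (by omega), add_zero]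

/-- The element of the unipotent radical. -/
noncomputable def radEl (m : ℕ) (c : Fin (n - m) → Fin m → F) : GL (Fin n) F :=
  Matrix.GeneralLinearGroup.mkOfDetNeZero (1 + blockMat m c) (by
    rw [Matrix.det_of_isUpperTriangular (blockMat_upper c), Finset.prod_eq_one fun i _ => blockMat_diag c i]
    exact one_ne_zero)

omit [Fintype F] [DecidableEq F] in
theorem radEl_val (c : Fin (n - m) → Fin m → F) :
    (radEl m c : Matrix (Fin n) (Fin n) F) = 1 + blockMat m c := rfl

omit [Fintype F] [DecidableEq F] in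
theorem charpoly_radEl (c : Fin (n - m) → Fin m → F) :
    (radEl m c : Matrix (Fin n) (Fin n) F).charpoly = (X - C 1) ^ n := by
  rw [radEl_val, Matrix.charpoly_of_isUpperTriangular _ (blockMat_upper c),
    Finset.prod_congr rfl fun i _ => by rw [blockMat_diag c i], Finset.prod_const, Finset.card_univ, Fintype.card_fin]

omit [Fintype F] [DecidableEq F] in
theorem finrank_ker_radEl (hm : m ≤ n) (c : Fin (n - m) → Fin m → F) :
    finrank F (LinearMap.ker (endo (radEl m c) - 1)) = n - finrank F (Submodule.span F (Set.range c)) := by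
  have h1 : endo (radEl m c) - 1 = (blockMat m c).mulVecLin := by
    refine LinearMap.ext fun v => ?_
    simp [endo, radEl_val, Matrix.add_mulVec]
  let pad : (Fin m → F) →ₗ[F] (Fin n → F) :=
    { toFun := fun v i => if h : i.val < m then v ⟨i.val, h⟩ else 0
      map_add' := fun v w => funext fun i => by by_cases h : i.val < m <;> simp [h]
      map_smul' := fun a v => funext fun i => by by_cases h : i.val < m <;> simp [h] }
  have hpad : Function.Injective pad := fun v w e => funext fun j => by
    have h2 := congrFun e ⟨j.val, lt_of_lt_of_le j.isLt hm⟩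
    simpa [pad] using h2
  have hr : LinearMap.range (blockMat m c).mulVecLin = (Submodule.span F (Set.range c)).map pad := by
    rw [Matrix.range_mulVecLin, Submodule.map_span]
    refine le_antisymm (Submodule.span_le.2 ?_) (Submodule.span_le.2 ?_)
    · rintro _ ⟨j, rfl⟩
      by_cases hj : m ≤ j.val
      · refine Submodule.subset_span ⟨_, ⟨⟨j.val - m, by have := j.isLt; omega⟩, rfl⟩, ?_⟩
        funext i
        by_cases hi : i.val < m <;> simp [pad, blockMat, Matrix.col, hi, hj]
      · have : (blockMat m c).col j = 0 := funext fun i => by simp [blockMat, Matrix.col, hj]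
        rw [this]
        exact Submodule.zero_mem _
    · rintro _ ⟨_, ⟨k, rfl⟩, rfl⟩
      refine Submodule.subset_span ⟨⟨k.val + m, by have := k.isLt; omega⟩, ?_⟩
      funext i
      by_cases hi : i.val < m <;> simp [pad, blockMat, Matrix.col, hi]
  have h2 := (blockMat m c).mulVecLin.finrank_range_add_finrank_ker
  rw [Module.finrank_fin_fun, hr, ← (Submodule.equivMapOfInjective pad hpad _).finrank_eq] at h2
  rw [h1]
  omega

open scoped Classical in
/-- The sum over a unipotent radical vanishes. -/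
theorem sum_radical_chi (ι : Lˣ →* ℂˣ) (hm0 : 0 < m) (hmn : m < n) :
    (∑ g : GL (Fin n) F,
      if (∀ i j : Fin n, ¬ (i.val < m ∧ m ≤ j.val) → (g : Matrix (Fin n) (Fin n) F) i j = (1 : Matrix (Fin n) (Fin n) F) i j)
      then chi ι g else 0) = 0 := by
  rw [← Finset.sum_filter]
  have hval : ∀ c : Fin (n - m) → Fin m → F, chi ι (radEl m c) = (-1) ^ (n - 1) *
      (greenProd (Fintype.card F : ℤ) (finrank F (Fin m → F) + ((n - m) - finrank F (Submodule.span F (Set.range c)))) : ℂ) := by
    intro c
    have hle : finrank F (Submodule.span F (Set.range c)) ≤ n - m :=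
      (finrank_range_le_card c).trans (by rw [Fintype.card_fin])
    rw [chi_unipotent (by omega) ι _ (charpoly_radEl c), finrank_ker_radEl hmn.le, Module.finrank_fin_fun]
    congr 4
    omega
  rw [show (∑ g ∈ Finset.univ.filter (fun g : GL (Fin n) F => ∀ i j : Fin n, ¬ (i.val < m ∧ m ≤ j.val) →
      (g : Matrix (Fin n) (Fin n) F) i j = (1 : Matrix (Fin n) (Fin n) F) i j), chi ι g) =
      ∑ c : Fin (n - m) → Fin m → F, chi ι (radEl m c) from ?_]
  · rw [Finset.sum_congr rfl fun c _ => hval c, ← Finset.mul_sum, ← Int.cast_sum,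
      sum_columns_eq_zero (E := F) (W := Fin m → F) (by rw [Module.finrank_fin_fun]; omega) (n - m) (by omega),
      Int.cast_zero, mul_zero]
  symm
  refine Finset.sum_bij (fun c _ => radEl m c) (fun c _ => ?_) (fun a _ b _ e => ?_) (fun g hg => ?_) (fun _ _ => rfl)
  · refine Finset.mem_filter.2 ⟨Finset.mem_univ _, fun i j h => ?_⟩
    rw [radEl_val, Matrix.add_apply, blockMat, dif_neg h, add_zero]
  · funext k i
    have h := congrArg (fun g : GL (Fin n) F => (g : Matrix (Fin n) (Fin n) F)
      ⟨i.val, lt_trans i.isLt hmn⟩ ⟨k.val + m, by have := k.isLt; omega⟩) e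
    simpa [radEl_val, blockMat, Matrix.one_apply_ne (α := F) (show (⟨i.val, lt_trans i.isLt hmn⟩ : Fin n) ≠
      ⟨k.val + m, by have := k.isLt; omega⟩ by intro e'; have := congrArg Fin.val e'; simp at this; omega)] using h
  · rw [Finset.mem_filter] at hg
    refine ⟨fun k i => (g : Matrix (Fin n) (Fin n) F) ⟨i.val, lt_trans i.isLt hmn⟩ ⟨k.val + m, by have := k.isLt; omega⟩,
      Finset.mem_univ _, Units.ext ?_⟩
    refine Matrix.ext fun i j => ?_
    rw [radEl_val, Matrix.add_apply, blockMat]
    by_cases h : i.val < m ∧ m ≤ j.val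
    · rw [dif_pos h, Matrix.one_apply_ne (by intro e; subst e; omega), zero_add]
      refine congrArg₂ _ rfl (Fin.ext ?_)
      show j.val - m + m = j.val
      omega
    · rw [dif_neg h, add_zero, hg.2 i j h]

end Radical

end Cfsg.Agent.H42.Cuspidal
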