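/-
The number of endomorphisms of a finite space killed by an irreducible polynomial.
-/
import Mathlib

set_option autoImplicit false

open Polynomial Module

namespace Cfsg.Agent.H42.Cuspidal

variable {F : Type*} [Field F] [Fintype F] {n : ℕ}

/-- The endomorphisms killed by an irreducible polynomial are counted by general linear groups. -/
theorem card_killed {f : F[X]} (hfm : f.Monic) [Fact (Irreducible f)] {m : ℕ} (hdim : n = f.natDegree * m) :
    Nat.card {T : Module.End F (Fin n → F) // aeval T f = 0} * Nat.card (GL (Fin m) (AdjoinRoot f)) =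
      Nat.card (GL (Fin n) F) := by
  classical
  have hf : Irreducible f := Fact.out
  haveI : Module.Finite F (AdjoinRoot f) := hfm.finite_adjoinRoot
  haveI : Finite (AdjoinRoot f) := Module.finite_of_finite F
  have hdE : finrank F (AdjoinRoot f) = f.natDegree := finrank_quotient_span_eq_natDegree
  have hM : finrank F (Fin m → AdjoinRoot f) = finrank F (Fin n → F) := by
    rw [Module.finrank_pi_fintype, Finset.sum_const, Finset.card_univ, Fintype.card_fin, smul_eq_mul, hdE,
      Module.finrank_fin_fun, hdim, mul_comm]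
  let e0 : (Fin m → AdjoinRoot f) ≃ₗ[F] (Fin n → F) := LinearEquiv.ofFinrankEq _ _ hM
  let R : Module.End F (Fin m → AdjoinRoot f) := Algebra.lsmul F F _ (AdjoinRoot.root f)
  have hR : aeval R f = 0 := by
    rw [show R = Algebra.lsmul F F _ (AdjoinRoot.root f) from rfl, aeval_algHom_apply, AdjoinRoot.aeval_eq,
      AdjoinRoot.mk_self, map_zero]
  let Ψ : ((Fin m → AdjoinRoot f) ≃ₗ[F] (Fin n → F)) → {T : Module.End F (Fin n → F) // aeval T f = 0} := fun e =>
    ⟨e.conjAlgEquiv F R, by rw [aeval_algHom_apply (e.conjAlgEquiv F) R f, hR, map_zero]⟩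
  have hΨ : ∀ e v, (Ψ e).1 (e v) = e (AdjoinRoot.root f • v) := fun e v => by
    show e (R (e.symm (e v))) = _
    rw [e.symm_apply_apply]; rfl
  have hsurj : Function.Surjective Ψ := by
    rintro ⟨T, hT⟩
    let φ : AdjoinRoot f →ₐ[F] Module.End F (Fin n → F) := Ideal.Quotient.liftₐ (Ideal.span {f}) (aeval T) (fun a ha => by
      obtain ⟨b, rfl⟩ := Ideal.mem_span_singleton'.1 ha
      rw [map_mul, hT, mul_zero])
    letI : Module (AdjoinRoot f) (Fin n → F) := Module.compHom (Fin n → F) φ.toRingHom
    haveI : IsScalarTower F (AdjoinRoot f) (Fin n → F) := ⟨fun c e v => by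
      show φ (c • e) v = c • φ e v
      rw [map_smul]; rfl⟩
    haveI : Module.Finite (AdjoinRoot f) (Fin n → F) := Module.Finite.of_restrictScalars_finite F _ _
    have hm : finrank (AdjoinRoot f) (Fin n → F) = m := by
      have h := Module.finrank_mul_finrank F (AdjoinRoot f) (Fin n → F)
      rw [hdE, Module.finrank_fin_fun] at h
      exact mul_left_cancel₀ hf.natDegree_pos.ne' (h.trans hdim)
    let eE : (Fin m → AdjoinRoot f) ≃ₗ[AdjoinRoot f] (Fin n → F) :=
      LinearEquiv.ofFinrankEq _ _ (by rw [Module.finrank_fin_fun, hm])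
    refine ⟨eE.restrictScalars F, Subtype.ext (LinearMap.ext fun v => ?_)⟩
    obtain ⟨w, rfl⟩ := eE.surjective v
    refine (hΨ (eE.restrictScalars F) w).trans ?_
    show eE (AdjoinRoot.root f • w) = T (eE w)
    rw [map_smul]
    show aeval T (X : F[X]) (eE w) = _
    rw [aeval_X]
  have hlin : ∀ (a : (Fin m → AdjoinRoot f) ≃ₗ[F] (Fin m → AdjoinRoot f)),
      (∀ v, a (AdjoinRoot.root f • v) = AdjoinRoot.root f • a v) →
      ∀ (c : AdjoinRoot f) v, a (c • v) = c • a v := by
    intro a ha c
    induction c using AdjoinRoot.induction_on with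
    | ih φ =>
      induction φ using Polynomial.induction_on' with
      | add p q hp hq => intro v; rw [map_add, add_smul, map_add, hp, hq, add_smul]
      | monomial k c =>
        have hmk : AdjoinRoot.mk f (monomial k c) = c • AdjoinRoot.root f ^ k := by
          rw [← C_mul_X_pow_eq_monomial, map_mul, map_pow, AdjoinRoot.mk_X, AdjoinRoot.mk_C, Algebra.smul_def,
            AdjoinRoot.algebraMap_eq]
        intro v
        rw [hmk, smul_assoc, smul_assoc, map_smul]
        congr 1
        clear hmk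
        induction k generalizing v with
        | zero => simp
        | succ k ih => rw [pow_succ', mul_smul, mul_smul, ha, ih]
  let sec : {T : Module.End F (Fin n → F) // aeval T f = 0} → ((Fin m → AdjoinRoot f) ≃ₗ[F] (Fin n → F)) :=
    Function.surjInv hsurj
  have hsec : ∀ T, Ψ (sec T) = T := Function.surjInv_eq hsurj
  let G : {T : Module.End F (Fin n → F) // aeval T f = 0} × ((Fin m → AdjoinRoot f) ≃ₗ[AdjoinRoot f] (Fin m → AdjoinRoot f)) →
      ((Fin m → AdjoinRoot f) ≃ₗ[F] (Fin n → F)) := fun z => (z.2.restrictScalars F).trans (sec z.1)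
  have hΨG : ∀ z, Ψ (G z) = z.1 := by
    rintro ⟨T, a⟩
    conv_rhs => rw [← hsec T]
    refine Subtype.ext (LinearMap.ext fun v => ?_)
    obtain ⟨w, rfl⟩ := (G (T, a)).surjective v
    rw [hΨ]
    show sec T (a (AdjoinRoot.root f • w)) = (Ψ (sec T)).1 (sec T (a w))
    rw [hΨ, map_smul]
  have hG : Function.Bijective G := by
    refine ⟨?_, fun e => ?_⟩
    · rintro ⟨T, a⟩ ⟨T', a'⟩ h
      have hT : T = T' := (hΨG (T, a)).symm.trans ((congrArg Ψ h).trans (hΨG (T', a')))
      subst hT
      refine Prod.ext rfl (LinearEquiv.ext fun v => ?_)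
      exact (sec T).injective (LinearEquiv.congr_fun h v)
    · set T := Ψ e with hT
      let b : (Fin m → AdjoinRoot f) ≃ₗ[F] (Fin m → AdjoinRoot f) := e.trans (sec T).symm
      have hb : ∀ v, b (AdjoinRoot.root f • v) = AdjoinRoot.root f • b v := by
        intro v
        apply (sec T).injective
        rw [← hΨ (sec T) (b v), hsec]
        show sec T ((sec T).symm (e _)) = T.1 (sec T ((sec T).symm (e v)))
        rw [LinearEquiv.apply_symm_apply, LinearEquiv.apply_symm_apply, hT, hΨ]
      refine ⟨(T, { b with map_smul' := hlin b hb }), LinearEquiv.ext fun v => ?_⟩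
      show sec T ((sec T).symm (e v)) = e v
      rw [LinearEquiv.apply_symm_apply]
  have h1 := Nat.card_congr (Equiv.ofBijective G hG)
  rw [Nat.card_prod] at h1
  have hA : Nat.card (GL (Fin m) (AdjoinRoot f)) = Nat.card ((Fin m → AdjoinRoot f) ≃ₗ[AdjoinRoot f] (Fin m → AdjoinRoot f)) :=
    Nat.card_congr (Matrix.GeneralLinearGroup.toLin.trans (LinearMap.GeneralLinearGroup.generalLinearEquiv _ _)).toEquiv
  have hB : Nat.card (GL (Fin n) F) = Nat.card ((Fin m → AdjoinRoot f) ≃ₗ[F] (Fin n → F)) :=
    (Nat.card_congr (Matrix.GeneralLinearGroup.toLin.trans (LinearMap.GeneralLinearGroup.generalLinearEquiv _ _)).toEquiv).trans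
      (Nat.card_congr
        { toFun := fun u => e0.trans u
          invFun := fun e => e0.symm.trans e
          left_inv := fun u => LinearEquiv.ext fun v => by simp
          right_inv := fun e => LinearEquiv.ext fun v => by simp })
  rw [hA, hB, h1]

/-- The order of a general linear group, factorised. -/
theorem prod_card_GL (Q m : ℕ) (hQ : 1 ≤ Q) :
    ((∏ i : Fin m, (Q ^ m - Q ^ (i : ℕ)) : ℕ) : ℤ) = (Q : ℤ) ^ m.choose 2 * ∏ i ∈ Finset.Icc 1 m, ((Q : ℤ) ^ i - 1) := by
  rw [Nat.cast_prod, Fin.prod_univ_eq_prod_range (fun i => ((Q ^ m - Q ^ i : ℕ) : ℤ)) m]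
  rw [Finset.prod_congr rfl (g := fun i => (Q : ℤ) ^ i * ((Q : ℤ) ^ (m - 1 - i + 1) - 1)) fun i hi => by
    have hi' := Finset.mem_range.1 hi
    rw [Nat.cast_sub (Nat.pow_le_pow_right hQ hi'.le), Nat.cast_pow, Nat.cast_pow, mul_sub, ← pow_add,
      show i + (m - 1 - i + 1) = m by omega, mul_one]]
  rw [Finset.prod_mul_distrib, Finset.prod_pow_eq_pow_sum, Finset.sum_range_id, ← Nat.choose_two_right,
    Finset.prod_range_reflect (fun i => (Q : ℤ) ^ (i + 1) - 1) m, ← Finset.Ico_succ_right_eq_Icc,
    Finset.prod_Ico_eq_prod_range]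
  congr 1
  refine Finset.prod_congr (by simp) fun i _ => ?_
  rw [add_comm]

end Cfsg.Agent.H42.Cuspidal
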