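/-
The elements of a finite field killed by `q ^ n - 1`, grouped by minimal polynomial.
-/
import Cfsg.Agent.H42.Cuspidal.Lift

set_option autoImplicit false

open Polynomial
open scoped ComplexConjugate

namespace Cfsg.Agent.H42.Cuspidal

variable {F : Type*} [Field F] [Fintype F] {L : Type*} [Field L] [Fintype L] [Algebra F L] {n : ℕ}

omit [Fintype L] in
theorem aeval_pow_card_pow (x : L) (f : F[X]) :
    ∀ i : ℕ, aeval (x ^ Fintype.card F ^ i) f = (aeval x f) ^ Fintype.card F ^ i := by
  intro i
  induction i with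
  | zero => simp
  | succ i ih =>
    rw [pow_succ, pow_mul, pow_mul, ← ih, ← map_pow, ← FiniteField.expand_card, expand_aeval]

open scoped Classical in
/-- The units killed by `q ^ n - 1`. -/
noncomputable def torus (F : Type*) [Fintype F] (L : Type*) [Field L] [Fintype L] (n : ℕ) : Finset Lˣ :=
  Finset.univ.filter fun x => x ^ (Fintype.card F ^ n - 1) = 1

omit [Field F] [Algebra F L] in
theorem mem_torus_iff [Nontrivial F] {x : Lˣ} :
    x ∈ torus F L n ↔ (x : L) ^ (Fintype.card F ^ n) = x := by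
  classical
  have h1 : 1 ≤ Fintype.card F ^ n := Nat.one_le_pow _ _ Fintype.card_pos
  rw [torus, Finset.mem_filter, and_iff_right (Finset.mem_univ _), Units.ext_iff, Units.val_pow_eq_pow_val, Units.val_one]
  constructor
  · intro h
    rw [← Nat.sub_add_cancel h1, pow_succ, h, one_mul]
  · intro h
    refine mul_right_cancel₀ x.ne_zero ?_
    rw [← pow_succ, Nat.sub_add_cancel h1, h, one_mul]

theorem minpoly_monic (x : L) : (minpoly F x).Monic := minpoly.monic (Algebra.IsIntegral.isIntegral x)

theorem minpoly_irred (x : L) : Irreducible (minpoly F x) := minpoly.irreducible (Algebra.IsIntegral.isIntegral x)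

theorem natDegree_minpoly_dvd {x : L} {k : ℕ} (h : x ^ (Fintype.card F ^ k) = x) : (minpoly F x).natDegree ∣ k := by
  refine (minpoly_irred x).natDegree_dvd_of_dvd_X_pow_card_pow_sub_X ?_
  refine minpoly.dvd F x ?_
  rw [map_sub, map_pow, aeval_X, Nat.card_eq_fintype_card, h, sub_self]

theorem pow_card_pow_natDegree (x : L) : x ^ (Fintype.card F ^ (minpoly F x).natDegree) = x := by
  have h := ((minpoly_irred (F := F) x).natDegree_dvd_iff_dvd_X_pow_card_pow_sub_X (n := (minpoly F x).natDegree)).1 dvd_rfl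
  have h0 := aeval_eq_zero_of_dvd_aeval_eq_zero h (minpoly.aeval F x)
  rwa [map_sub, map_pow, aeval_X, Nat.card_eq_fintype_card, sub_eq_zero] at h0

theorem pow_card_pow_injOn (x : L) :
    Set.InjOn (fun i => x ^ (Fintype.card F ^ i)) (Set.Iio (minpoly F x).natDegree) := by
  intro i hi j hj h
  wlog hij : i ≤ j generalizing i j
  · exact (this hj hi h.symm (le_of_not_ge hij)).symm
  by_contra hne
  obtain ⟨p, hp⟩ := CharP.exists F
  obtain ⟨⟨r, rpos⟩, hpp, hr⟩ := FiniteField.card F p
  haveI : Fact p.Prime := ⟨hpp⟩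
  haveI : CharP L p := charP_of_injective_algebraMap (algebraMap F L).injective p
  have hk : x ^ (Fintype.card F ^ (j - i)) = x := by
    have h' : (x ^ (Fintype.card F ^ (j - i))) ^ (Fintype.card F ^ i) = x ^ (Fintype.card F ^ i) := by
      rw [← pow_mul, ← pow_add, Nat.sub_add_cancel hij]; exact h.symm
    have hqp : Fintype.card F ^ i = p ^ (r * i) := by rw [hr, ← pow_mul]; rfl
    rw [hqp] at h'
    refine iterateFrobenius_inj L p (r * i) ?_
    rw [iterateFrobenius_def, iterateFrobenius_def]
    exact h'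
  have hd := natDegree_minpoly_dvd hk
  rcases Nat.eq_zero_or_pos (j - i) with h0 | h0
  · exact hne (by omega)
  · have := Nat.le_of_dvd h0 hd
    simp only [Set.mem_Iio] at hj
    omega

theorem roots_minpoly (x : L) :
    ((minpoly F x).map (algebraMap F L)).roots =
      (Multiset.range (minpoly F x).natDegree).map fun i => x ^ (Fintype.card F ^ i) := by
  refine (Multiset.eq_of_le_of_card_le ?_ ?_).symm
  · refine (Multiset.le_iff_subset ?_).2 ?_
    · exact (Multiset.nodup_range _).map_on fun i hi j hj h =>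
        pow_card_pow_injOn x (Multiset.mem_range.1 hi) (Multiset.mem_range.1 hj) h
    · intro y hy
      obtain ⟨i, -, rfl⟩ := Multiset.mem_map.1 hy
      rw [mem_roots ((minpoly_monic x).map _).ne_zero, IsRoot.def, eval_map_algebraMap, aeval_pow_card_pow,
        minpoly.aeval, zero_pow (pow_ne_zero _ Fintype.card_ne_zero)]
  · rw [Multiset.card_map, Multiset.card_range]
    refine (card_roots' _).trans ?_
    rw [(minpoly_monic x).natDegree_map]

open scoped Classical in
/-- The minimal polynomials of the elements killed by `q ^ n - 1`. -/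
noncomputable def torusPolys (F : Type*) [Field F] [Fintype F] (L : Type*) [Field L] [Fintype L] [Algebra F L]
    (n : ℕ) : Finset F[X] :=
  (torus F L n).image fun x : Lˣ => minpoly F (x : L)

theorem torusPolys_props {f : F[X]} (hf : f ∈ torusPolys F L n) :
    f.Monic ∧ Irreducible f ∧ f.coeff 0 ≠ 0 ∧ f.natDegree ∣ n := by
  classical
  obtain ⟨x, hx, rfl⟩ := Finset.mem_image.1 hf
  exact ⟨minpoly_monic _, minpoly_irred _, minpoly.coeff_zero_ne_zero (Algebra.IsIntegral.isIntegral _) x.ne_zero,
    natDegree_minpoly_dvd (mem_torus_iff.1 hx)⟩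

theorem mem_torusPolys {e0 : ℕ} (hcard : Fintype.card L = Fintype.card F ^ e0) (hn : ∀ d, 0 < d → d ≤ n → d ∣ e0)
    (hn0 : 0 < n) {f : F[X]} (hfm : f.Monic) (hf : Irreducible f) (hc : f.coeff 0 ≠ 0) (hd : f.natDegree ∣ n) :
    f ∈ torusPolys F L n := by
  classical
  have hdvd := (hf.natDegree_dvd_iff_dvd_X_pow_card_pow_sub_X (n := e0)).1
    (hn _ hf.natDegree_pos (Nat.le_of_dvd hn0 hd))
  rw [Nat.card_eq_fintype_card, ← hcard] at hdvd
  have hY : (X ^ Fintype.card L - X : L[X]).Splits := by
    rw [splits_iff_card_roots, FiniteField.roots_X_pow_card_sub_X,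
      FiniteField.X_pow_card_sub_X_natDegree_eq L Fintype.one_lt_card]
    rfl
  have hmap : f.map (algebraMap F L) ∣ X ^ Fintype.card L - X := by
    have := Polynomial.map_dvd (algebraMap F L) hdvd
    simpa using this
  obtain ⟨x, hx⟩ := (hY.of_dvd (FiniteField.X_pow_card_sub_X_ne_zero L Fintype.one_lt_card) hmap).exists_eval_eq_zero
    (by
      rw [degree_map]
      exact (degree_pos_of_irreducible hf).ne')
  rw [eval_map_algebraMap] at hx
  have hmin : minpoly F x = f := (minpoly.eq_of_irreducible_of_monic hf hx hfm).symm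
  have hx0 : x ≠ 0 := by
    rintro rfl
    rw [aeval_def, eval₂_at_zero] at hx
    exact hc ((algebraMap F L).injective (hx.trans (map_zero _).symm))
  refine Finset.mem_image.2 ⟨Units.mk0 x hx0, mem_torus_iff.2 ?_, hmin⟩
  rw [Units.val_mk0]
  have hdn := (hf.natDegree_dvd_iff_dvd_X_pow_card_pow_sub_X (n := n)).1 hd
  have h0 := aeval_eq_zero_of_dvd_aeval_eq_zero hdn hx
  rwa [map_sub, map_pow, aeval_X, Nat.card_eq_fintype_card, sub_eq_zero] at h0

/-- The sum over the Galois orbit with repetitions. -/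
noncomputable def orbitSum (F : Type*) [Fintype F] {L : Type*} [Field L] [Fintype L] (n : ℕ) (ι : Lˣ →* ℂˣ)
    (x : L) : ℂ :=
  ∑ i ∈ Finset.range n, iota0 ι (x ^ (Fintype.card F ^ i))

theorem orbitSum_eq (ι : Lˣ →* ℂˣ) {x : Lˣ} (hx : x ∈ torus F L n) :
    orbitSum F n ι (x : L) = ((n / (minpoly F (x : L)).natDegree : ℕ) : ℂ) * rootSum ι (minpoly F (x : L)) := by
  set d := (minpoly F (x : L)).natDegree with hd
  obtain ⟨m, hm⟩ := natDegree_minpoly_dvd (F := F) (mem_torus_iff.1 hx)
  have hr : rootSum ι (minpoly F (x : L)) = ∑ i ∈ Finset.range d, iota0 ι ((x : L) ^ (Fintype.card F ^ i)) := by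
    rw [rootSum, roots_minpoly, Multiset.map_map]; rfl
  have hper : ∀ i, (x : L) ^ (Fintype.card F ^ (d + i)) = (x : L) ^ (Fintype.card F ^ i) := fun i => by
    rw [pow_add, pow_mul, hd, pow_card_pow_natDegree]
  have hdpos : 0 < d := (minpoly_irred (F := F) (x : L)).natDegree_pos
  rw [← hd] at hm
  rw [hr, hm, Nat.mul_div_cancel_left _ hdpos]
  unfold orbitSum
  clear hm hr hx
  induction m with
  | zero => simp
  | succ m ih =>
    rw [show d * (m + 1) = d + d * m by ring, Finset.sum_range_add,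
      Finset.sum_congr (s₁ := Finset.range (d * m)) rfl fun i _ => by rw [hper i], ih]
    push_cast; ring

open scoped Classical in
theorem sum_torus_eq (ι κ : Lˣ →* ℂˣ) :
    ∑ x ∈ torus F L n, orbitSum F n ι (x : L) * conj (orbitSum F n κ (x : L)) =
      (n : ℂ) * ∑ f ∈ torusPolys F L n, ((n / f.natDegree : ℕ) : ℂ) * (rootSum ι f * conj (rootSum κ f)) := by
  rw [Finset.mul_sum, torusPolys, ← Finset.sum_fiberwise_of_maps_to
    (g := fun x : Lˣ => minpoly F (x : L)) (fun x hx => Finset.mem_image_of_mem (fun x : Lˣ => minpoly F (x : L)) hx)]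
  refine Finset.sum_congr rfl fun f hf => ?_
  obtain ⟨x₀, hx₀, rfl⟩ := Finset.mem_image.1 hf
  rw [Finset.sum_congr rfl (g := fun _ => ((n / (minpoly F (x₀ : L)).natDegree : ℕ) : ℂ) ^ 2 *
    (rootSum ι (minpoly F (x₀ : L)) * conj (rootSum κ (minpoly F (x₀ : L))))) fun x hx => by
      obtain ⟨hx1, hx2⟩ := Finset.mem_filter.1 hx
      rw [orbitSum_eq ι hx1, orbitSum_eq κ hx1, hx2, map_mul, Complex.conj_natCast]
      ring,
    Finset.sum_const]
  set d := (minpoly F (x₀ : L)).natDegree with hd
  have hdn : d ∣ n := natDegree_minpoly_dvd (mem_torus_iff.1 hx₀)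
  have hcard : ((torus F L n).filter fun x : Lˣ => minpoly F (x : L) = minpoly F (x₀ : L)).card = d := by
    rw [← Finset.card_range d]
    refine (Finset.card_bij (fun i _ => x₀ ^ (Fintype.card F ^ i)) (fun i hi => ?_) (fun i hi j hj h => ?_)
      (fun y hy => ?_)).symm
    · refine Finset.mem_filter.2 ⟨?_, ?_⟩
      · have h := hx₀
        rw [torus, Finset.mem_filter] at h ⊢
        refine ⟨Finset.mem_univ _, ?_⟩
        rw [← pow_mul, mul_comm, pow_mul, h.2, one_pow]
      · refine (minpoly.eq_of_irreducible_of_monic (minpoly_irred _) ?_ (minpoly_monic _)).symm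
        rw [Units.val_pow_eq_pow_val, aeval_pow_card_pow, minpoly.aeval, zero_pow (pow_ne_zero _ Fintype.card_ne_zero)]
    · refine pow_card_pow_injOn (x₀ : L) (Finset.mem_range.1 hi) (Finset.mem_range.1 hj) ?_
      simpa using congrArg Units.val h
    · obtain ⟨-, hy2⟩ := Finset.mem_filter.1 hy
      have h : (y : L) ∈ ((minpoly F (x₀ : L)).map (algebraMap F L)).roots := by
        rw [mem_roots ((minpoly_monic _).map _).ne_zero, IsRoot.def, eval_map_algebraMap, ← hy2, minpoly.aeval]
      rw [roots_minpoly, Multiset.mem_map] at h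
      obtain ⟨i, hi, hiy⟩ := h
      exact ⟨i, Finset.mem_range.2 (Multiset.mem_range.1 hi), Units.ext (by rw [Units.val_pow_eq_pow_val, hiy])⟩
  rw [hcard, nsmul_eq_mul]
  have hnm : (n : ℂ) = (d : ℂ) * ((n / d : ℕ) : ℂ) := by rw [← Nat.cast_mul, Nat.mul_div_cancel' hdn]
  rw [hnm]
  ring

end Cfsg.Agent.H42.Cuspidal
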