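/-
The inner products of chain lifts.
-/
import Cfsg.Agent.H42.Cuspidal.Chi
import Cfsg.Agent.H42.Cuspidal.Count
import Cfsg.Agent.H42.Cuspidal.Roots

set_option autoImplicit false
set_option maxHeartbeats 1000000

open Polynomial Module UniqueFactorizationMonoid Cfsg.Agent.H70 Cfsg.Agent.H42.StValues
open scoped ComplexConjugate

namespace Cfsg.Agent.H42.Cuspidal

variable {F : Type*} [Field F] [Fintype F] {L : Type*} [Field L] [Fintype L] [Algebra F L] {n : ℕ}

omit [Fintype F] in
theorem endo_mul (g h : GL (Fin n) F) : endo (g * h) = endo g * endo h := by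
  simp [endo, Matrix.toLin'_mul, Module.End.mul_eq_comp]

omit [Fintype F] in
theorem endo_one : endo (1 : GL (Fin n) F) = 1 := by
  simp [endo, Module.End.one_eq_id]

omit [Fintype F] in
theorem endo_injective (g : GL (Fin n) F) : Function.Injective (endo g) := by
  intro v w h
  have h' := congrArg (endo g⁻¹) h
  rwa [← Module.End.mul_apply, ← Module.End.mul_apply, ← endo_mul, inv_mul_cancel, endo_one, Module.End.one_apply,
    Module.End.one_apply] at h'

/-- The unit attached to a square zero endomorphism. -/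
noncomputable def shiftEl (B : Module.End F (Fin n → F)) (hB : B * B = 0) : GL (Fin n) F :=
  Units.map (LinearMap.toMatrixAlgEquiv' : Module.End F (Fin n → F) ≃ₐ[F] _).toMonoidHom
    ⟨1 + B, 1 - B, by rw [add_mul, mul_sub, mul_sub, one_mul, mul_one, hB, one_mul]; abel,
      by rw [sub_mul, mul_add, mul_add, one_mul, mul_one, hB, one_mul]; abel⟩

omit [Fintype F] in
theorem endo_shiftEl (B : Module.End F (Fin n → F)) (hB : B * B = 0) : endo (shiftEl B hB) = 1 + B :=
  Matrix.toLin'_toMatrix' _

omit [Fintype F] in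
theorem glMap_eq_self {g : GL (Fin n) F} {U : Submodule F (Fin n → F)} (h : ∀ v ∈ U, endo g v = v) : glMap g U = U := by
  refine le_antisymm ?_ fun v hv => ⟨v, hv, h v hv⟩
  rintro _ ⟨v, hv, rfl⟩
  have e : (g : Matrix (Fin n) (Fin n) F).mulVecLin v = v := h v hv
  rw [e]
  exact hv

variable [DecidableEq F]

open scoped Classical in
/-- A proper subspace contributes nothing to the inner product. -/
theorem sum_fixed_translate_eq_zero (hn : 0 < n) (ι κ : Lˣ →* ℂˣ) (ω : ChainPair n F) (hW : ω.1.1 ≠ ⊤) :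
    ∑ g : GL (Fin n) F, (if g • ω = ω then pairVal ι g ω * conj (chainLift κ g) else 0) = 0 := by
  set W := ω.1.1 with hWdef
  haveI : Finite ((Fin n → F) →ₗ[F] W) := Finite.of_injective _ DFunLike.coe_injective
  letI : Fintype ((Fin n → F) →ₗ[F] W) := Fintype.ofFinite _
  have hB : ∀ A : {A : (Fin n → F) →ₗ[F] W // ∀ v ∈ W, A v = 0},
      (W.subtype ∘ₗ A.1 : Module.End F (Fin n → F)) * (W.subtype ∘ₗ A.1) = 0 := fun A => LinearMap.ext fun v => by
    show ((A.1 ((A.1 v : W) : Fin n → F) : W) : Fin n → F) = 0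
    rw [A.2 _ (A.1 v).2]; rfl
  let u : {A : (Fin n → F) →ₗ[F] W // ∀ v ∈ W, A v = 0} → GL (Fin n) F := fun A => shiftEl _ (hB A)
  have hu : ∀ A v, v ∈ W → endo (u A) v = v := fun A v hv => by
    show endo (shiftEl _ (hB A)) v = v
    rw [endo_shiftEl, LinearMap.add_apply, Module.End.one_apply, LinearMap.comp_apply, A.2 v hv, map_zero, add_zero]
  have hfix : ∀ A, u A • ω = ω := fun A => by
    refine Subtype.ext (Prod.ext (glMap_eq_self fun v hv => hu A v hv) ?_)
    show Finset.image (glMap (u A)) ω.1.2 = ω.1.2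
    conv_rhs => rw [← Finset.image_id (s := ω.1.2)]
    exact Finset.image_congr fun x hx => glMap_eq_self fun v hv => hu A v ((ω.2.2.1 x hx).2.le hv)
  set term : GL (Fin n) F → ℂ := fun g => if g • ω = ω then pairVal ι g ω * conj (chainLift κ g) else 0 with hterm
  have key : ∀ g, ∑ A, term (g * u A) = 0 := by
    intro g
    by_cases hg : g • ω = ω
    swap
    · refine Finset.sum_eq_zero fun A _ => if_neg ?_
      rwa [mul_smul, hfix]
    have hinv : ∀ v ∈ W, endo g v ∈ W := endo_mem_of_glMap (congrArg (fun o : ChainPair n F => o.1.1) hg).le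
    have hpv : ∀ A, pairVal ι (g * u A) ω = pairVal ι g ω := by
      intro A
      have hinv' : ∀ v ∈ W, endo (g * u A) v ∈ W := fun v hv => by
        rw [endo_mul, Module.End.mul_apply, hu A v hv]; exact hinv v hv
      rw [pairVal, pairVal, subVal, subVal, dif_pos hinv', dif_pos hinv]
      congr 3
      refine LinearMap.ext fun v => Subtype.ext ?_
      show endo (g * u A) (v : Fin n → F) = endo g v
      rw [endo_mul, Module.End.mul_apply, hu A _ v.2]
    rw [Finset.sum_congr rfl (g := fun A => pairVal ι g ω * conj (chainLift κ (g * u A))) fun A _ => by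
      rw [hterm]
      show (if (g * u A) • ω = ω then _ else _) = _
      rw [if_pos (by rw [mul_smul, hfix, hg]), hpv]]
    rw [← Finset.mul_sum, ← map_sum]
    suffices h : ∑ A, chainLift κ (g * u A) = 0 by rw [h, map_zero, mul_zero]
    let σ : {A : (Fin n → F) →ₗ[F] W // ∀ v ∈ W, A v = 0} → {A : (Fin n → F) →ₗ[F] W // ∀ v ∈ W, A v = 0} :=
      fun A => ⟨((endo g).restrict hinv) ∘ₗ A.1, fun v hv => by rw [LinearMap.comp_apply, A.2 v hv, map_zero]⟩
    have hσ : Function.Bijective σ := by
      refine Finite.injective_iff_bijective.1 fun A A' h => Subtype.ext (LinearMap.ext fun v => Subtype.ext ?_)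
      exact endo_injective g (congrArg Subtype.val (LinearMap.congr_fun (congrArg Subtype.val h) v))
    have he : ∀ A, endo (g * u A) = endo g + W.subtype ∘ₗ (σ A).1 := fun A => by
      rw [endo_mul]
      show endo g * endo (shiftEl _ (hB A)) = _
      rw [endo_shiftEl, mul_add, mul_one]
      rfl
    have hch : ∀ A, ((g * u A : GL (Fin n) F) : Matrix (Fin n) (Fin n) F).charpoly =
        (g : Matrix (Fin n) (Fin n) F).charpoly := fun A => by
      rw [← Matrix.charpoly_toLin', ← Matrix.charpoly_toLin' (g : Matrix (Fin n) (Fin n) F)]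
      show (endo (g * u A)).charpoly = (endo g).charpoly
      rw [he, charpoly_translate (endo g) (W.subtype ∘ₗ (σ A).1) W hinv (fun v => ((σ A).1 v).2) fun v hv => by
        rw [LinearMap.comp_apply, (σ A).2 v hv, map_zero]]
    rcases primary_or_split hn g with ⟨f, m, hm, hfm, hf, hc⟩ | ⟨f, f', hfm, hf, hfm', hf', hne, hd, hd'⟩
    · have hkill : aeval (endo g) (f ^ m) = 0 := by
        rw [← hc, ← Matrix.charpoly_toLin' (g : Matrix (Fin n) (Fin n) F)]
        exact LinearMap.aeval_self_charpoly _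
      have h0 := sum_translate_eq_zero (endo g) W hinv ω.2.1 hW hfm hf (PerfectField.separable_of_irreducible hf) hkill
      have hval : ∀ A, chainLift κ (g * u A) = rootSum κ f * (greenProd ((Fintype.card F : ℤ) ^ f.natDegree)
          (finrank F (LinearMap.ker (aeval (endo g + W.subtype ∘ₗ (σ A).1) f)) / f.natDegree) : ℂ) := fun A => by
        rw [chainLift_eq_greenProd κ _ hm hfm hf ((hch A).trans hc), he]
      rw [Finset.sum_congr rfl fun A _ => hval A, ← Finset.mul_sum, ← Int.cast_sum,
        hσ.sum_comp (fun A => greenProd ((Fintype.card F : ℤ) ^ f.natDegree)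
          (finrank F (LinearMap.ker (aeval (endo g + W.subtype ∘ₗ A.1) f)) / f.natDegree)),
        ]
      refine mul_eq_zero_of_right _ (Int.cast_eq_zero.2 ?_)
      convert h0 using 2
      exact Finset.ext fun x => by simp
    · exact Finset.sum_eq_zero fun A _ =>
        chainLift_eq_zero κ _ hfm hf hfm' hf' hne (hch A ▸ hd) (hch A ▸ hd')
  have h2 : ∑ A, ∑ g, term (g * u A) = 0 := by
    rw [Finset.sum_comm]
    exact Finset.sum_eq_zero fun g _ => key g
  have h3 : ∀ A, ∑ g, term (g * u A) = ∑ g, term g := fun A => Equiv.sum_comp (Equiv.mulRight (u A)) term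
  rw [Finset.sum_congr rfl fun A _ => h3 A, Finset.sum_const, nsmul_eq_mul] at h2
  rcases mul_eq_zero.1 h2 with h | h
  · haveI : Nonempty {A : (Fin n → F) →ₗ[F] W // ∀ v ∈ W, A v = 0} := ⟨⟨0, fun _ _ => rfl⟩⟩
    rw [Finset.card_univ, Nat.cast_eq_zero] at h
    exact absurd h Fintype.card_ne_zero
  · exact h

open scoped Classical in
/-- The part of the chain lift supported on the whole space. -/
noncomputable def topPart (ι : Lˣ →* ℂˣ) (g : GL (Fin n) F) : ℂ :=
  ∑ ω ∈ Finset.univ.filter (fun ω : ChainPair n F => g • ω = ω ∧ ω.1.1 = ⊤), pairVal ι g ω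

open scoped Classical in
theorem sum_chainLift_mul_conj (hn : 0 < n) (ι κ : Lˣ →* ℂˣ) :
    ∑ g : GL (Fin n) F, chainLift ι g * conj (chainLift κ g) = ∑ g : GL (Fin n) F, topPart ι g * conj (chainLift κ g) := by
  have hsplit : ∀ g : GL (Fin n) F, chainLift ι g * conj (chainLift κ g) = topPart ι g * conj (chainLift κ g) +
      ∑ ω ∈ Finset.univ.filter (fun ω : ChainPair n F => ω.1.1 ≠ ⊤),
        (if g • ω = ω then pairVal ι g ω * conj (chainLift κ g) else 0) := by
    intro g
    rw [← Finset.sum_filter, Finset.filter_filter, ← Finset.sum_mul, ← add_mul]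
    congr 1
    rw [chainLift, topPart, ← Finset.sum_filter_add_sum_filter_not
      (Finset.univ.filter fun ω : ChainPair n F => g • ω = ω) (fun ω => ω.1.1 = ⊤), Finset.filter_filter,
      Finset.filter_filter]
    congr 1
    exact Finset.sum_congr (Finset.filter_congr fun ω _ => and_comm) fun _ _ => rfl
  rw [Finset.sum_congr rfl fun g _ => hsplit g, Finset.sum_add_distrib, Finset.sum_comm]
  rw [add_eq_left]
  refine Finset.sum_eq_zero fun ω hω => ?_
  exact sum_fixed_translate_eq_zero hn ι κ ω (Finset.mem_filter.1 hω).2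

omit [Fintype F] in
theorem toSub_top (g : GL (Fin n) F) : toSub (⊤ : Submodule F[X] (PolyModule g)) = ⊤ := by
  ext v; simp [mem_toSub]

theorem topPart_eq (hn : 0 < n) (ι : Lˣ →* ℂˣ) (g : GL (Fin n) F) [Fintype (Submodule F[X] (PolyModule g))] :
    topPart ι g = (chainSum (⊤ : Submodule F[X] (PolyModule g)) : ℂ) *
      rootSum ι (g : Matrix (Fin n) (Fin n) F).charpoly := by
  classical
  haveI : Module.Finite F (PolyModule g) := Module.AEval.instFiniteOrig (endo g)
  rw [show topPart ι g = _ from (Finset.sum_congr (by ext; simp) fun _ _ => rfl).trans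
    (chainPart_eq_sum_submodules ι g (fun W => W = ⊤))]
  have hnt : (⊤ : Submodule F[X] (PolyModule g)) ≠ ⊥ := fun e => by
    have h := congrArg toSub e
    rw [toSub_top, show toSub (⊥ : Submodule F[X] (PolyModule g)) = ⊥ by ext v; simp [mem_toSub]] at h
    have h2 := congrArg (fun U : Submodule F (Fin n → F) => finrank F U) h
    simp only [finrank_top, finrank_bot, Module.finrank_fin_fun] at h2
    omega
  rw [Finset.sum_eq_single (⊤ : Submodule F[X] (PolyModule g))]
  · congr 1
    rw [← subVal_toSub, toSub_top, subVal, dif_pos (fun v _ => Submodule.mem_top)]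
    congr 1
    rw [← Matrix.charpoly_toLin' (g : Matrix (Fin n) (Fin n) F)]
    exact (charpoly_eq_of_intertwine Submodule.topEquiv _ _ fun v => rfl).symm
  · intro q hq hne
    exact absurd (toSub_injective ((Finset.mem_filter.1 hq).2.2.trans (toSub_top g).symm)) hne
  · exact fun h => absurd (Finset.mem_filter.2 ⟨Finset.mem_univ _, hnt, toSub_top g⟩) h

open scoped Classical in
theorem chainSum_top_primary (hn : 0 < n) (g : GL (Fin n) F) [Fintype (Submodule F[X] (PolyModule g))] {f : F[X]} {m : ℕ}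
    (hfm : f.Monic) (hf : Irreducible f) (hc : (g : Matrix (Fin n) (Fin n) F).charpoly = f ^ m) :
    chainSum (⊤ : Submodule F[X] (PolyModule g)) =
      if aeval (endo g) f = 0 then -muFactor (Fintype.card F) f.natDegree (n / f.natDegree) else 0 := by
  haveI : Finite (PolyModule g) := Finite.of_equiv _ (Module.AEval'.of (endo g)).toEquiv
  haveI : Module.Finite F (PolyModule g) := Module.AEval.instFiniteOrig (endo g)
  have hkill : ∀ w : PolyModule g, (Multiset.replicate m f).prod • w = 0 := by
    intro w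
    rw [Multiset.prod_replicate, ← hc, ← Matrix.charpoly_toLin' (g : Matrix (Fin n) (Fin n) F)]
    apply (Module.AEval'.of (endo g)).symm.injective
    rw [Module.AEval.of_symm_smul, LinearMap.aeval_self_charpoly, map_zero]
    rfl
  have hnt : (⊤ : Submodule F[X] (PolyModule g)) ≠ ⊥ := by
    intro e
    have h : ∀ v : Fin n → F, v = 0 := fun v => by
      have := (Submodule.mem_bot F[X]).1 (e ▸ Submodule.mem_top (x := Module.AEval'.of (endo g) v))
      exact (LinearEquiv.map_eq_zero_iff _).1 this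
    have := congrFun (h fun _ => (1 : F)) ⟨0, hn⟩
    exact one_ne_zero this
  have hiff : (⊤ : Submodule F[X] (PolyModule g)) ≤ kerBy (∏ u ∈ ({f} : Finset F[X]), u) ↔ aeval (endo g) f = 0 := by
    rw [Finset.prod_singleton]
    constructor
    · intro h
      refine LinearMap.ext fun v => ?_
      have := mem_kerBy.1 (h (Submodule.mem_top (x := Module.AEval'.of (endo g) v)))
      rw [← Module.AEval.of_aeval_smul] at this
      exact (LinearEquiv.map_eq_zero_iff _).1 this
    · intro h w _
      rw [mem_kerBy]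
      apply (Module.AEval'.of (endo g)).symm.injective
      rw [Module.AEval.of_symm_smul, h, map_zero]
      rfl
  rw [chainSum_eq_mu_socle {f} (by simp [hfm, hf]) (by simpa using hf.squarefree) (Multiset.replicate m f)
    (fun u hu => by rw [Finset.mem_singleton]; exact Multiset.eq_of_mem_replicate hu) hkill hnt]
  by_cases h : aeval (endo g) f = 0
  · rw [if_pos (hiff.2 h), if_pos h, Submodule.comap_top]
    congr 1
    rw [mu, Finset.prod_singleton]
    congr 1
    haveI : Module.Finite F ↥(kerBy (M := PolyModule g) (∏ u ∈ ({f} : Finset F[X]), u)) :=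
      Module.Finite.of_injective ((kerBy (M := PolyModule g) _).subtype.restrictScalars F) Subtype.val_injective
    rw [mult_top_kerBy f _ (by rw [Finset.prod_singleton]), mult_top_eq, h, LinearMap.ker_zero, finrank_top,
      Module.finrank_fin_fun]
  · rw [if_neg (fun h' => h (hiff.1 h')), if_neg h, neg_zero]

/-- A polynomial killing the element is the only prime divisor of its characteristic polynomial. -/
theorem eq_of_killed (g : GL (Fin n) F) {f f' : F[X]} (hfm : f.Monic) (hf : Irreducible f)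
    (h : aeval (endo g) f = 0) (hfm' : f'.Monic) (hf' : Irreducible f')
    (hd : f' ∣ (g : Matrix (Fin n) (Fin n) F).charpoly) : f' = f := by
  by_contra hne
  have hcop : IsCoprime f' f :=
    hf'.coprime_iff_not_dvd.2 fun hdvd => hne (eq_of_monic_of_associated hfm' hfm (hf'.associated_of_dvd hf hdvd))
  obtain ⟨a, b, hab⟩ := hcop
  refine ker_ne_bot_of_dvd_charpoly g hfm' hf' hd ((Submodule.eq_bot_iff _).2 fun v hv => ?_)
  have := congrArg (fun P : F[X] => aeval (endo g) P v) hab
  simp only [map_add, map_mul, map_one, h, mul_zero, add_zero, Module.End.mul_apply, Module.End.one_apply,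
    LinearMap.mem_ker.1 hv, map_zero] at this
  exact this.symm

theorem charpoly_of_killed (hn : 0 < n) (g : GL (Fin n) F) {f : F[X]} (hfm : f.Monic) (hf : Irreducible f)
    (h : aeval (endo g) f = 0) :
    (g : Matrix (Fin n) (Fin n) F).charpoly = f ^ (n / f.natDegree) ∧ f.natDegree ∣ n ∧ f.coeff 0 ≠ 0 := by
  rcases primary_or_split hn g with ⟨f₁, m, hm, hfm₁, hf₁, hc⟩ | ⟨f₁, f₂, hfm₁, hf₁, hfm₂, hf₂, hne, hd₁, hd₂⟩
  · obtain rfl := eq_of_killed g hfm hf h hfm₁ hf₁ (hc ▸ dvd_pow_self f₁ hm.ne')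
    have hdeg : n = m * f₁.natDegree := by
      rw [← Polynomial.natDegree_pow, ← hc, Matrix.charpoly_natDegree_eq_dim, Fintype.card_fin]
    refine ⟨?_, ⟨m, by rw [hdeg, mul_comm]⟩, fun h0 => ?_⟩
    · rw [Nat.div_eq_of_eq_mul_left hf.natDegree_pos hdeg, hc]
    · have hX : f₁ = X := (eq_of_monic_of_associated monic_X hfm
        (irreducible_X.associated_of_dvd hf (X_dvd_iff.2 h0))).symm
      rw [hX, aeval_X] at h
      have hv := endo_injective g (a₁ := fun _ => (1 : F)) (a₂ := 0) (by simp [h])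
      exact one_ne_zero (congrFun hv ⟨0, hn⟩)
  · exact absurd ((eq_of_killed g hfm hf h hfm₁ hf₁ hd₁).trans (eq_of_killed g hfm hf h hfm₂ hf₂ hd₂).symm) hne

omit [Fintype F] in
theorem rootSum_pow (ι : Lˣ →* ℂˣ) {P : F[X]} (hP : P ≠ 0) (m : ℕ) : rootSum ι (P ^ m) = (m : ℂ) * rootSum ι P := by
  induction m with
  | zero => rw [pow_zero, rootSum, Polynomial.map_one, roots_one]; simp
  | succ m ih => rw [pow_succ, rootSum_mul ι (pow_ne_zero m hP) hP, ih]; push_cast; ring

/-- The class weight. -/
noncomputable def weight (F : Type*) [Fintype F] (d m : ℕ) : ℂ :=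
  (m : ℂ) * ((Fintype.card F : ℂ) ^ d) ^ m.choose 2 * ∏ i ∈ Finset.Ico 1 m, (((Fintype.card F : ℂ) ^ d) ^ i - 1)

open scoped Classical in
theorem topPart_mul_conj_primary (hn : 0 < n) (ι κ : Lˣ →* ℂˣ) (g : GL (Fin n) F) {f : F[X]} {m : ℕ}
    (hfm : f.Monic) (hf : Irreducible f) (hc : (g : Matrix (Fin n) (Fin n) F).charpoly = f ^ m) :
    topPart ι g * conj (chainLift κ g) =
      if aeval (endo g) f = 0 then
        weight F f.natDegree (n / f.natDegree) * (rootSum ι f * conj (rootSum κ f))
      else 0 := by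
  haveI : Finite (PolyModule g) := Finite.of_equiv _ (Module.AEval'.of (endo g)).toEquiv
  letI : Fintype (Submodule F[X] (PolyModule g)) := Fintype.ofFinite _
  rw [topPart_eq hn, chainSum_top_primary hn g hfm hf hc]
  by_cases h : aeval (endo g) f = 0
  swap
  · rw [if_neg h, if_neg h, Int.cast_zero, zero_mul, zero_mul]
  rw [if_pos h, if_pos h]
  obtain ⟨hc', hdn, -⟩ := charpoly_of_killed hn g hfm hf h
  set k := n / f.natDegree with hk
  have hk0 : 0 < k := Nat.div_pos (Nat.le_of_dvd hn hdn) hf.natDegree_pos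
  rw [chainLift_eq_greenProd κ g hk0 hfm hf hc', hc', rootSum_pow ι hfm.ne_zero, h, LinearMap.ker_zero, finrank_top,
    Module.finrank_fin_fun, ← hk, map_mul, muFactor, weight, greenProd]
  obtain ⟨j, hj⟩ : ∃ j, k = j + 1 := ⟨k - 1, by omega⟩
  rw [hj]
  have hprod : conj ((∏ i ∈ Finset.Ico 1 (j + 1), (1 - ((Fintype.card F : ℤ) ^ f.natDegree) ^ i) : ℤ) : ℂ) =
      (-1) ^ j * ∏ i ∈ Finset.Ico 1 (j + 1), (((Fintype.card F : ℂ) ^ f.natDegree) ^ i - 1) := by
    rw [map_intCast, show ((-1 : ℂ)) ^ j = ∏ _i ∈ Finset.Ico 1 (j + 1), (-1 : ℂ) by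
      rw [Finset.prod_const, Nat.card_Ico, Nat.add_sub_cancel], ← Finset.prod_mul_distrib, Int.cast_prod]
    refine Finset.prod_congr rfl fun i _ => ?_
    push_cast
    ring
  have hsq : ((-1 : ℂ)) ^ j * (-1) ^ j = 1 := by rw [← mul_pow]; norm_num
  rw [hprod, ← pow_mul]
  push_cast
  linear_combination (((Fintype.card F : ℂ)) ^ (f.natDegree * (j + 1).choose 2) * ((j : ℂ) + 1) * rootSum ι f *
    conj (rootSum κ f) * ∏ i ∈ Finset.Ico 1 (j + 1), (((Fintype.card F : ℂ) ^ f.natDegree) ^ i - 1)) * hsq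

open scoped Classical in
/-- The elements killed by a polynomial in the torus list. -/
theorem sum_topPart {e0 : ℕ} (hn : 0 < n) (hcard : Fintype.card L = Fintype.card F ^ e0)
    (hdiv : ∀ d, 0 < d → d ≤ n → d ∣ e0) (ι κ : Lˣ →* ℂˣ) :
    ∑ g : GL (Fin n) F, topPart ι g * conj (chainLift κ g) =
      ∑ f ∈ torusPolys F L n, (Nat.card {g : GL (Fin n) F // aeval (endo g) f = 0} : ℂ) *
        (weight F f.natDegree (n / f.natDegree) * (rootSum ι f * conj (rootSum κ f))) := by
  have key : ∀ g : GL (Fin n) F, topPart ι g * conj (chainLift κ g) =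
      ∑ f ∈ torusPolys F L n, if aeval (endo g) f = 0 then
        weight F f.natDegree (n / f.natDegree) * (rootSum ι f * conj (rootSum κ f)) else 0 := by
    intro g
    rcases primary_or_split hn g with ⟨f, m, hm, hfm, hf, hc⟩ | ⟨f, f', hfm, hf, hfm', hf', hne, hd, hd'⟩
    · rw [topPart_mul_conj_primary hn ι κ g hfm hf hc]
      by_cases h : aeval (endo g) f = 0
      · obtain ⟨-, hdn, hc0⟩ := charpoly_of_killed hn g hfm hf h
        rw [if_pos h, Finset.sum_eq_single_of_mem f (mem_torusPolys hcard hdiv hn hfm hf hc0 hdn), if_pos h]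
        intro f₁ hf₁ hne
        refine if_neg fun h1 => hne ?_
        obtain ⟨h1m, h1i, -, -⟩ := torusPolys_props hf₁
        exact (eq_of_killed g h1m h1i h1 hfm hf (hc ▸ dvd_pow_self f hm.ne')).symm
      · rw [if_neg h, Finset.sum_eq_zero fun f₁ hf₁ => ?_]
        refine if_neg fun h1 => h ?_
        obtain ⟨h1m, h1i, -, -⟩ := torusPolys_props hf₁
        rwa [← eq_of_killed g h1m h1i h1 hfm hf (hc ▸ dvd_pow_self f hm.ne')] at h1
    · rw [chainLift_eq_zero κ g hfm hf hfm' hf' hne hd hd', map_zero, mul_zero, Finset.sum_eq_zero fun f₁ hf₁ => ?_]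
      refine if_neg fun h1 => hne ?_
      obtain ⟨h1m, h1i, -, -⟩ := torusPolys_props hf₁
      rw [eq_of_killed g h1m h1i h1 hfm hf hd, eq_of_killed g h1m h1i h1 hfm' hf' hd']
  rw [Finset.sum_congr rfl fun g _ => key g, Finset.sum_comm]
  refine Finset.sum_congr rfl fun f _ => ?_
  rw [← Finset.sum_filter, Finset.sum_const, Nat.card_eq_fintype_card, Fintype.card_subtype, nsmul_eq_mul]

theorem card_killed_GL (hn : 0 < n) {f : F[X]} (hf : Irreducible f) (hc : f.coeff 0 ≠ 0) :
    Nat.card {g : GL (Fin n) F // aeval (endo g) f = 0} = Nat.card {T : Module.End F (Fin n → F) // aeval T f = 0} := by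
  refine Nat.card_congr (Equiv.ofBijective (fun g => ⟨endo g.1, g.2⟩) ⟨fun a b h => ?_, fun T => ?_⟩)
  · exact Subtype.ext (Units.ext (Matrix.toLin'.injective (congrArg Subtype.val h)))
  · have hker : ∀ v, T.1 v = 0 → v = 0 := by
      intro v hv
      have h0 : aeval T.1 f v = 0 := by rw [T.2]; rfl
      have h1 := congrArg (fun P : F[X] => aeval T.1 P v) (X_mul_divX_add f)
      rw [h0] at h1
      rw [mul_comm, map_add, map_mul, aeval_X, aeval_C, LinearMap.add_apply, Module.End.mul_apply, hv, map_zero,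
        zero_add, Module.algebraMap_end_apply] at h1
      exact (smul_eq_zero.1 h1).resolve_left hc
    have hinj : Function.Injective T.1 := by
      rw [← LinearMap.ker_eq_bot, LinearMap.ker_eq_bot']
      exact hker
    have hu : IsUnit T.1 := (Module.End.isUnit_iff _).2 ⟨hinj, LinearMap.injective_iff_surjective.1 hinj⟩
    have he : endo (Units.map (LinearMap.toMatrixAlgEquiv' : Module.End F (Fin n → F) ≃ₐ[F] _).toMonoidHom hu.unit) = T.1 :=
      Matrix.toLin'_toMatrix' _
    exact ⟨⟨Units.map (LinearMap.toMatrixAlgEquiv' : Module.End F (Fin n → F) ≃ₐ[F] _).toMonoidHom hu.unit,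
      by rw [he]; exact T.2⟩, Subtype.ext he⟩

open scoped Classical in
/-- The inner products of chain lifts. -/
theorem norm_formula {e0 : ℕ} (hn : 0 < n) (hcard : Fintype.card L = Fintype.card F ^ e0)
    (hdiv : ∀ d, 0 < d → d ≤ n → d ∣ e0) (ι κ : Lˣ →* ℂˣ) :
    (n : ℂ) * ((Fintype.card F : ℂ) ^ n - 1) * ∑ g : GL (Fin n) F, chainLift ι g * conj (chainLift κ g) =
      (Nat.card (GL (Fin n) F) : ℂ) * ∑ x ∈ torus F L n, orbitSum F n ι (x : L) * conj (orbitSum F n κ (x : L)) := by
  rw [sum_chainLift_mul_conj hn, sum_topPart hn hcard hdiv, sum_torus_eq, Finset.mul_sum, Finset.mul_sum,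
    Finset.mul_sum]
  refine Finset.sum_congr rfl fun f hf => ?_
  obtain ⟨hfm, hfi, hc, hdn⟩ := torusPolys_props hf
  haveI : Fact (Irreducible f) := ⟨hfi⟩
  haveI : Module.Finite F (AdjoinRoot f) := hfm.finite_adjoinRoot
  haveI : Finite (AdjoinRoot f) := Module.finite_of_finite F
  letI : Fintype (AdjoinRoot f) := Fintype.ofFinite _
  have hQ : Fintype.card (AdjoinRoot f) = Fintype.card F ^ f.natDegree := by
    rw [Module.card_eq_pow_finrank (K := F), show finrank F (AdjoinRoot f) = f.natDegree from finrank_quotient_span_eq_natDegree]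
  set k := n / f.natDegree with hk
  have hnk : n = f.natDegree * k := (Nat.mul_div_cancel' hdn).symm
  have hk0 : 0 < k := Nat.div_pos (Nat.le_of_dvd hn hdn) hfi.natDegree_pos
  have hck := card_killed hfm hnk
  rw [Matrix.card_GL_field, hQ, ← card_killed_GL hn hfi hc] at hck
  have hck' : (Nat.card {g : GL (Fin n) F // aeval (endo g) f = 0} : ℂ) *
      (((Fintype.card F : ℂ) ^ f.natDegree) ^ k.choose 2 *
        ∏ i ∈ Finset.Icc 1 k, (((Fintype.card F : ℂ) ^ f.natDegree) ^ i - 1)) = (Nat.card (GL (Fin n) F) : ℂ) := by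
    have h := prod_card_GL (Fintype.card F ^ f.natDegree) k (Nat.one_le_pow _ _ Fintype.card_pos)
    have h' := congrArg (fun z : ℤ => (z : ℂ)) h
    simp only [Int.cast_natCast, Int.cast_mul, Int.cast_pow, Int.cast_prod, Int.cast_sub, Int.cast_one] at h'
    push_cast at h'
    rw [← h', ← hck, Nat.cast_mul]
    push_cast
    rfl
  rw [← hck', ← Finset.Ico_succ_right_eq_Icc, Order.succ_eq_add_one, Finset.prod_Ico_succ_top hk0, weight,
    ← pow_mul (Fintype.card F : ℂ) f.natDegree k, ← hnk]
  ring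

end Cfsg.Agent.H42.Cuspidal
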