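/-
Orthogonality on the units killed by `q ^ n - 1`.
-/
import Cfsg.Agent.H42.Cuspidal.Roots

set_option autoImplicit false

open Polynomial
open scoped ComplexConjugate

namespace Cfsg.Agent.H42.Cuspidal

variable {F : Type*} [Field F] [Fintype F] {L : Type*} [Field L] [Fintype L] {n : ℕ}

omit [Field F] in
theorem sum_torus_pow_mul_conj (ι0 : Lˣ →* ℂˣ) (hι0 : Function.Injective ι0) (hN : 0 < Fintype.card F ^ n - 1)
    (hdvd : Fintype.card F ^ n - 1 ∣ Nat.card Lˣ) (A B : ℕ) :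
    ∑ x ∈ torus F L n, (ι0 x : ℂ) ^ A * conj ((ι0 x : ℂ) ^ B) =
      if (A : ZMod (Fintype.card F ^ n - 1)) = B then ((Fintype.card F ^ n - 1 : ℕ) : ℂ) else 0 := by
  classical
  obtain ⟨g, hg⟩ := IsCyclic.exists_ofOrder_eq_natCard (α := Lˣ)
  obtain ⟨r, hr⟩ := hdvd
  set z := g ^ r with hz
  set N := Fintype.card F ^ n - 1 with hNdef
  haveI : NeZero N := ⟨hN.ne'⟩
  have hzord : orderOf z = N := by
    have hr0 : r ≠ 0 := by
      rintro rfl
      have := Nat.card_pos (α := Lˣ)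
      omega
    rw [hz, orderOf_pow' _ hr0, hg, hr, Nat.gcd_eq_right (dvd_mul_left r N),
      Nat.mul_div_cancel _ (Nat.pos_of_ne_zero hr0)]
  have hzL : IsPrimitiveRoot (z : L) N :=
    IsPrimitiveRoot.coe_units_iff.2 (hzord ▸ IsPrimitiveRoot.orderOf z)
  have hζ : IsPrimitiveRoot ((ι0 z : ℂˣ) : ℂ) N :=
    IsPrimitiveRoot.coe_units_iff.2 ((hzord ▸ IsPrimitiveRoot.orderOf z).map_of_injective hι0)
  set ζ := ((ι0 z : ℂˣ) : ℂ) with hζdef
  have htor : torus F L n = (Finset.range N).image (fun i => z ^ i) := by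
    ext x
    simp only [torus, Finset.mem_filter, Finset.mem_univ, true_and, Finset.mem_image, Finset.mem_range]
    constructor
    · intro hx
      obtain ⟨i, hi, hix⟩ := hzL.eq_pow_of_pow_eq_one (ξ := (x : L)) (by
        rw [← Units.val_pow_eq_pow_val, hx, Units.val_one])
      exact ⟨i, hi, Units.ext (by rw [Units.val_pow_eq_pow_val, hix])⟩
    · rintro ⟨i, -, rfl⟩
      rw [← pow_mul, mul_comm, pow_mul, show z ^ (Fintype.card F ^ n - 1) = 1 by rw [← hNdef, ← hzord]; exact pow_orderOf_eq_one z, one_pow]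
  rw [htor, Finset.sum_image fun i hi j hj h => pow_injOn_Iio_orderOf (by rw [Set.mem_Iio, hzord]; exact Finset.mem_range.1 hi)
    (by rw [Set.mem_Iio, hzord]; exact Finset.mem_range.1 hj) h]
  set w := ζ ^ A * (ζ ^ B)⁻¹ with hw
  have hterm : ∀ i : ℕ, (ι0 (z ^ i) : ℂ) ^ A * conj ((ι0 (z ^ i) : ℂ) ^ B) = w ^ i := by
    intro i
    rw [map_pow, Units.val_pow_eq_pow_val, ← hζdef, map_pow, map_pow,
      ← Complex.inv_eq_conj (hζ.norm'_eq_one hN.ne'), hw, mul_pow, inv_pow, inv_pow, inv_pow]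
    rw [← pow_mul, ← pow_mul, ← pow_mul, ← pow_mul, mul_comm A, mul_comm B]
  rw [Finset.sum_congr rfl fun i _ => hterm i]
  have hζ0 : ζ ≠ 0 := Units.ne_zero _
  have hiff : w = 1 ↔ (A : ZMod N) = B := by
    rw [hw, mul_inv_eq_one₀ (pow_ne_zero _ hζ0), ZMod.natCast_eq_natCast_iff]
    constructor
    · intro h
      have hu : (hζ.isUnit hN.ne').unit ^ A = (hζ.isUnit hN.ne').unit ^ B := Units.ext (by simpa using h)
      rw [pow_eq_pow_iff_modEq, ← IsPrimitiveRoot.eq_orderOf (hζ.isUnit_unit hN.ne')] at hu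
      exact hu
    · intro h
      exact pow_eq_pow_of_modEq h hζ.pow_eq_one
  split_ifs with h
  · rw [hiff.2 h]; simp
  · refine (geom_sum_eq (fun e => h (hiff.1 e)) N).trans ?_
    have : w ^ N = 1 := by
      rw [hw, mul_pow, inv_pow, ← pow_mul, ← pow_mul, mul_comm A, mul_comm B, pow_mul, pow_mul, hζ.pow_eq_one]
      simp
    rw [this, sub_self, zero_div]

end Cfsg.Agent.H42.Cuspidal
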