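/-
The cuspidal characters of the general linear group attached to regular characters of the largest torus.
-/
import Cfsg.Agent.H42.Cuspidal.Norm
import Cfsg.Agent.H42.Cuspidal.Orth
import Cfsg.Agent.H70.UnipotentIrr
import Cfsg.Agent.H26.CharOrtho

set_option autoImplicit false
set_option maxHeartbeats 1000000

open Polynomial Cfsg.Agent.H70
open scoped ComplexConjugate

namespace Cfsg.Agent.H42.Cuspidal

variable {F : Type*} [Field F] [Fintype F] [DecidableEq F] {L : Type*} [Field L] [Fintype L] [Algebra F L] {n : ℕ}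

open scoped Classical in
/-- The inner product in terms of coincidences of exponents. -/
theorem classInner_chi (hn : 2 ≤ n) {e0 : ℕ} (hcard : Fintype.card L = Fintype.card F ^ e0)
    (hdiv : ∀ d, 0 < d → d ≤ n → d ∣ e0) (ι0 : Lˣ →* ℂˣ) (hι0 : Function.Injective ι0) (b c : ℕ) :
    Cfsg.classInner (chi ((powMonoidHom b).comp ι0) : GL (Fin n) F → ℂ) (chi ((powMonoidHom c).comp ι0)) =
      (n : ℂ)⁻¹ * ∑ i ∈ Finset.range n, ∑ j ∈ Finset.range n,
        (if ((b * Fintype.card F ^ i : ℕ) : ZMod (Fintype.card F ^ n - 1)) = ((c * Fintype.card F ^ j : ℕ) : ZMod (Fintype.card F ^ n - 1)) then (1 : ℂ) else 0) := by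
  set q := Fintype.card F with hq
  have hq1 : 1 < q := Fintype.one_lt_card
  have hqn : 1 < q ^ n := Nat.one_lt_pow (by omega) hq1
  have hdvd : q ^ n - 1 ∣ Nat.card Lˣ := by
    rw [Nat.card_eq_fintype_card, Fintype.card_units, hcard]
    obtain ⟨k, hk⟩ := hdiv n (by omega) le_rfl
    rw [hk, pow_mul]
    simpa using Nat.sub_dvd_pow_sub_pow (q ^ n) 1 k
  have horb : ∀ (e : ℕ), ∀ x : Lˣ, orbitSum F n ((powMonoidHom e).comp ι0) (x : L) =
      ∑ i ∈ Finset.range n, (ι0 x : ℂ) ^ (e * q ^ i) := by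
    intro e x
    refine Finset.sum_congr rfl fun i _ => ?_
    rw [← Units.val_pow_eq_pow_val, iota0_unit, MonoidHom.comp_apply, powMonoidHom_apply, map_pow,
      Units.val_pow_eq_pow_val, Units.val_pow_eq_pow_val, ← pow_mul, mul_comm]
  have hS : ∑ x ∈ torus F L n, orbitSum F n ((powMonoidHom b).comp ι0) (x : L) *
      conj (orbitSum F n ((powMonoidHom c).comp ι0) (x : L)) = ((q ^ n - 1 : ℕ) : ℂ) *
      ∑ i ∈ Finset.range n, ∑ j ∈ Finset.range n,
        (if ((b * q ^ i : ℕ) : ZMod (q ^ n - 1)) = ((c * q ^ j : ℕ) : ZMod (q ^ n - 1)) then (1 : ℂ) else 0) := by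
    simp only [horb, map_sum, Finset.sum_mul, Finset.mul_sum]
    rw [Finset.sum_comm]
    conv_lhs => arg 2; ext y; rw [Finset.sum_comm]
    rw [Finset.sum_comm]
    refine Finset.sum_congr rfl fun i _ => Finset.sum_congr rfl fun j _ => ?_
    rw [sum_torus_pow_mul_conj ι0 hι0 (Nat.sub_pos_of_lt hqn) hdvd, mul_ite, mul_one, mul_zero]
  have hnorm := norm_formula (n := n) (by omega) hcard hdiv ((powMonoidHom b).comp ι0) ((powMonoidHom c).comp ι0)
  rw [hS, Nat.cast_sub hqn.le, Nat.cast_pow, Nat.cast_one, ← hq] at hnorm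
  have hq0 : (q : ℂ) ^ n - 1 ≠ 0 := by
    rw [sub_ne_zero]
    exact_mod_cast hqn.ne'
  have hG : (Nat.card (GL (Fin n) F) : ℂ) ≠ 0 := by exact_mod_cast Nat.card_pos.ne'
  have hn0 : (n : ℂ) ≠ 0 := by exact_mod_cast (show n ≠ 0 by omega)
  have hsum : ∀ g : GL (Fin n) F, chi ((powMonoidHom b).comp ι0) g * conj (chi ((powMonoidHom c).comp ι0) g) =
      chainLift ((powMonoidHom b).comp ι0) g * conj (chainLift ((powMonoidHom c).comp ι0) g) := by
    intro g
    rw [chi, chi, map_mul, map_pow, map_neg, map_one, mul_mul_mul_comm, ← mul_pow, neg_one_mul, neg_neg, one_pow,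
      one_mul]
  rw [Cfsg.classInner, Finset.sum_congr rfl fun g _ => hsum g]
  refine mul_left_cancel₀ (mul_ne_zero hn0 hq0) ?_
  rw [mul_left_comm, hnorm]
  field_simp

theorem orderOf_nat_unit {q n : ℕ} (hq1 : 1 < q) (hn : 2 ≤ n) (u : (ZMod (q ^ n - 1))ˣ)
    (hu : (u : ZMod (q ^ n - 1)) = (q : ℕ)) : orderOf u = n := by
  rw [orderOf_eq_iff (by omega)]
  have hpow : ∀ i, ((u ^ i : (ZMod (q ^ n - 1))ˣ) : ZMod (q ^ n - 1)) = ((q ^ i : ℕ) : ZMod (q ^ n - 1)) := fun i => by
    rw [Units.val_pow_eq_pow_val, hu, Nat.cast_pow]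
  refine ⟨Units.ext ?_, fun i hin hi0 hui => ?_⟩
  · have h1 : ((q ^ n : ℕ) : ZMod (q ^ n - 1)) = ((q ^ n - 1 + 1 : ℕ) : ZMod (q ^ n - 1)) :=
      congrArg Nat.cast (Nat.sub_add_cancel (Nat.one_le_pow n q (by omega))).symm
    rw [hpow, h1, Nat.cast_add, ZMod.natCast_self, zero_add, Nat.cast_one, Units.val_one]
  · have h : ((q ^ i : ℕ) : ZMod (q ^ n - 1)) = ((1 : ℕ) : ZMod (q ^ n - 1)) := by
      rw [← hpow, hui, Units.val_one, Nat.cast_one]
    rw [ZMod.natCast_eq_natCast_iff'] at h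
    have h1 : q ^ i ≤ q ^ (n - 1) := Nat.pow_le_pow_right (by omega) (by omega)
    have h2 : q ^ n = q ^ (n - 1) * q := by rw [← pow_succ, Nat.sub_add_cancel (by omega)]
    have h3 : 2 ≤ q ^ (n - 1) := le_trans hq1 (Nat.le_self_pow (by omega) q)
    have h4 : q ^ (n - 1) * 2 ≤ q ^ (n - 1) * q := Nat.mul_le_mul_left _ hq1
    have h5 : q ≤ q ^ i := Nat.le_self_pow (by omega) q
    rw [Nat.mod_eq_of_lt (by omega), Nat.mod_eq_of_lt (by omega)] at h
    omega

open scoped Classical in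
/-- The cuspidal characters attached to a field and an injection of its units. -/
theorem cuspidal_count (hn : 2 ≤ n) (p : ℕ) [Fact p.Prime] [CharP F p] {e0 : ℕ}
    (hcard : Fintype.card L = Fintype.card F ^ e0) (hdiv : ∀ d, 0 < d → d ≤ n → d ∣ e0)
    (ι0 : Lˣ →* ℂˣ) (hι0 : Function.Injective ι0) :
    Nat.totient (Fintype.card F ^ n - 1) / n ≤
      Nat.card {χ : Cfsg.IrrCharacter (GL (Fin n) F) //
        (χ : GL (Fin n) F → ℂ) 1 = ∏ i ∈ Finset.Ico 1 n, ((Fintype.card F : ℂ) ^ i - 1) ∧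
        ∀ m : ℕ, 0 < m → m < n →
          (∑ g : GL (Fin n) F,
            if (∀ i j : Fin n, ¬ (i.val < m ∧ m ≤ j.val) → (g : Matrix (Fin n) (Fin n) F) i j = (1 : Matrix (Fin n) (Fin n) F) i j)
            then (χ : GL (Fin n) F → ℂ) g else 0) = 0} := by
  set q := Fintype.card F with hq
  set N := q ^ n - 1 with hN
  have hq1 : 1 < q := Fintype.one_lt_card
  have hqn : 1 < q ^ n := Nat.one_lt_pow (by omega) hq1
  haveI : NeZero N := ⟨by omega⟩
  have hM : N ∣ Nat.card Lˣ := by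
    rw [Nat.card_eq_fintype_card, Fintype.card_units, hcard]
    obtain ⟨k, hk⟩ := hdiv n (by omega) le_rfl
    rw [hk, pow_mul]
    simpa using Nat.sub_dvd_pow_sub_pow (q ^ n) 1 k
  haveI : NeZero (Nat.card Lˣ) := ⟨Nat.card_pos.ne'⟩
  have hqu : IsUnit ((q : ℕ) : ZMod N) := by
    rw [ZMod.isUnit_iff_coprime]
    refine Nat.Coprime.symm (Nat.coprime_of_dvd fun r hr hrN hrq => ?_)
    have h1 : r ∣ q ^ n := dvd_pow hrq (by omega)
    have h2 := Nat.dvd_sub h1 hrN
    rw [hN, Nat.sub_sub_self hqn.le] at h2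
    exact hr.one_lt.ne' (Nat.dvd_one.1 h2)
  set qu := hqu.unit with hquDef
  have hord : orderOf qu = n := orderOf_nat_unit hq1 hn qu hqu.unit_spec
  let C := (ZMod N)ˣ ⧸ Subgroup.zpowers qu
  choose lift hlift using ZMod.unitsMap_surjective (m := Nat.card Lˣ) hM
  let e : C → ℕ := fun a => ((lift a.out : (ZMod (Nat.card Lˣ))ˣ) : ZMod (Nat.card Lˣ)).val
  have he : ∀ a, ((e a : ℕ) : ZMod N) = (a.out : (ZMod N)ˣ) := by
    intro a
    conv_rhs => rw [← hlift a.out]
    rw [ZMod.unitsMap_val, ← ZMod.natCast_val]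
  have hinj : ∀ a, Function.Injective ((powMonoidHom (e a)).comp ι0) := by
    intro a
    rw [injective_iff_map_eq_one]
    intro x hx
    rw [MonoidHom.comp_apply, powMonoidHom_apply, ← map_pow, map_eq_one_iff ι0 hι0] at hx
    have hcop : Nat.Coprime (e a) (Nat.card Lˣ) := ZMod.val_coe_unit_coprime _
    have h1 := pow_card_eq_one' (G := Lˣ) (x := x)
    exact (pow_gcd_eq_one.2 ⟨hx, h1⟩ |> fun h => by rwa [hcop, pow_one] at h)
  let X : C → GL (Fin n) F → ℂ := fun a => chi ((powMonoidHom (e a)).comp ι0)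
  have hcount : ∀ a a' : C, ∀ i ∈ Finset.range n, ∀ j ∈ Finset.range n,
      (((e a * q ^ i : ℕ) : ZMod N) = ((e a' * q ^ j : ℕ) : ZMod N) ↔ a = a' ∧ i = j) := by
    intro a a' i hi j hj
    rw [Finset.mem_range] at hi hj
    rw [Nat.cast_mul, Nat.cast_mul, Nat.cast_pow, Nat.cast_pow, he, he, ← hqu.unit_spec, ← hquDef,
      ← Units.val_pow_eq_pow_val, ← Units.val_pow_eq_pow_val, ← Units.val_mul, ← Units.val_mul, Units.val_inj]
    constructor
    · intro h
      have hc := congrArg (fun u : (ZMod N)ˣ => (QuotientGroup.mk u : C)) h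
      simp only [QuotientGroup.mk_mul, QuotientGroup.mk_pow,
        (QuotientGroup.eq_one_iff qu).2 (Subgroup.mem_zpowers qu), one_pow, mul_one, QuotientGroup.out_eq'] at hc
      subst hc
      refine ⟨rfl, ?_⟩
      exact pow_injOn_Iio_orderOf (by rw [Set.mem_Iio, hord]; exact hi) (by rw [Set.mem_Iio, hord]; exact hj)
        (mul_left_cancel h)
    · rintro ⟨rfl, rfl⟩; rfl
  have hinner : ∀ a a' : C, Cfsg.classInner (X a) (X a') = if a = a' then 1 else 0 := by
    intro a a'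
    rw [classInner_chi hn hcard hdiv ι0 hι0, Finset.sum_congr rfl fun i hi => Finset.sum_congr rfl fun j hj =>
      if_congr (hcount a a' i hi j hj) rfl rfl]
    by_cases h : a = a'
    · rw [if_pos h, Finset.sum_congr rfl (g := fun _ => (1 : ℂ)) fun i hi => by
        simp [h, hi], Finset.sum_const, Finset.card_range, nsmul_one]
      exact inv_mul_cancel₀ (by exact_mod_cast (show n ≠ 0 by omega))
    · rw [if_neg h, Finset.sum_eq_zero fun i _ => Finset.sum_eq_zero fun j _ => if_neg fun h' => h h'.1, mul_zero]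
  have hirr : ∀ a, Cfsg.IsIrrCharacter (GL (Fin n) F) (X a) := by
    intro a
    obtain ⟨A, B, hA, hB, hAB⟩ := chi_mem_genChars (n := n) ((powMonoidHom (e a)).comp ι0) (hinj a) p hcard hdiv
    have h1 := hinner a a
    rw [if_pos rfl] at h1
    have hX : X a = A - B := hAB
    rw [hX] at h1 ⊢
    refine isIrrCharacter_sub_of_norm_one hA hB h1 ⟨∏ i ∈ Finset.Ico 1 n, ((q : ℝ) ^ i - 1), ?_, ?_⟩
    · refine Finset.prod_pos fun i hi => ?_
      have h2 : (1 : ℝ) < (q : ℝ) ^ i := one_lt_pow₀ (by exact_mod_cast hq1) (by have := Finset.mem_Ico.1 hi; omega)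
      linarith
    · rw [← hX]
      show chi _ (1 : GL (Fin n) F) = _
      rw [chi_one (by omega)]
      push_cast
      rfl
  have hcardC : Nat.card C = Nat.totient N / n := by
    rw [← ZMod.card_units_eq_totient, ← Nat.card_eq_fintype_card,
      Subgroup.card_eq_card_quotient_mul_card_subgroup (Subgroup.zpowers qu), Nat.card_zpowers, hord,
      Nat.mul_div_cancel _ (by omega)]
  rw [← hcardC]
  haveI : Finite (Cfsg.IrrCharacter (GL (Fin n) F)) := Cfsg.Agent.H26.finite_irrCharacter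
  refine Nat.card_le_card_of_injective (fun a => ⟨⟨X a, hirr a⟩, ⟨?_, fun m h1 h2 => ?_⟩⟩) fun a a' h => ?_
  · exact chi_one (by omega) _
  · exact sum_radical_chi _ h1 h2
  · have hX : X a = X a' := congrArg (fun z => z.1.1) h
    by_contra hne
    have h1 := hinner a a'
    rw [if_neg hne, ← hX, hinner a a, if_pos rfl] at h1
    exact one_ne_zero h1

end Cfsg.Agent.H42.Cuspidal
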